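import Cfsg.Agent.Lib.Geometric.OrthType.Sys

/-!
The action of the normaliser of a system on its labels, with signs.
-/

set_option autoImplicit false
set_option linter.unusedSectionVars false

namespace CfsgLib.Geometric.OrthType

open CfsgLib.Geometric
open CfsgLib.Geometric.PauliMax (sgn sgn_zero sgn_one sgn_cases sgn_sq sgn_inj sgn_add sgn_ne_zero)

variable {k : ℕ} {ι : Type} [Fintype ι] [DecidableEq ι] {F : Type*} [Field F]

local notation "𝕄" => Matrix ι ι F

namespace Sys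

variable (S : Sys k ι F) {g h : GL ι F}

open scoped Classical in
/-- The label to which `g` sends a label. -/
noncomputable def sP (g : GL ι F) (v : L k) : L k :=
  if h : ∃ (w : L k) (c : F), (g : 𝕄) * S.P v = c • (S.P w * (g : 𝕄)) then h.choose else v

open scoped Classical in
/-- The coefficient. -/
noncomputable def cP (g : GL ι F) (v : L k) : F :=
  if h : ∃ (w : L k) (c : F), (g : 𝕄) * S.P v = c • (S.P w * (g : 𝕄)) then h.choose_spec.choose else 1

theorem act_spec (hg : g ∈ S.N) (v : L k) :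
    (g : 𝕄) * S.P v = S.cP g v • (S.P (S.sP g v) * (g : 𝕄)) := by
  have h := hg.2 v
  rw [sP, cP, dif_pos h, dif_pos h]
  exact h.choose_spec.choose_spec

theorem act_unique (hg : g ∈ S.N) {v w : L k} {c : F}
    (h : (g : 𝕄) * S.P v = c • (S.P w * (g : 𝕄))) : S.sP g v = w ∧ S.cP g v = c := by
  have h' := S.act_spec hg v
  rw [h, ← smul_mul_assoc, ← smul_mul_assoc] at h'
  have h1 : c • S.P w = S.cP g v • S.P (S.sP g v) := (Units.mul_left_inj g).1 h'
  have hc : c ≠ 0 := S.coeff_ne_zero h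
  have e : S.sP g v = w := by
    refine (S.eq_of_smul_P (c := c⁻¹ * S.cP g v) ?_).symm
    rw [← smul_smul, ← h1, smul_smul, inv_mul_cancel₀ hc, one_smul]
  exact ⟨e, (S.smul_P_inj w (e ▸ h1)).symm⟩

theorem cP_sq (hg : g ∈ S.N) (v : L k) : S.cP g v * S.cP g v = 1 := by
  refine S.smul_sq_eq_one (g := g * S.gl v) (h := S.gl (S.sP g v) * g) (mul_mem hg.1 (S.gl_mem_isom v))
    (mul_mem (S.gl_mem_isom _) hg.1) ?_
  rw [Units.val_mul, Units.val_mul, coe_gl, coe_gl]
  exact S.act_spec hg v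

theorem act_q (h2 : (2 : F) ≠ 0) (hg : g ∈ S.N) (v : L k) : S.q (S.sP g v) = S.q v := by
  haveI := S.nonempty
  refine (sgn_inj h2 ?_).symm
  have h := S.act_spec hg v
  set w := S.sP g v
  set c := S.cP g v
  have e : sgn F (S.q v) • (g : 𝕄) = sgn F (S.q w) • (g : 𝕄) := by
    calc sgn F (S.q v) • (g : 𝕄) = (g : 𝕄) * S.P v * S.P v := by rw [mul_assoc, S.sq, mul_smul_comm, mul_one]
      _ = c • (S.P w * ((g : 𝕄) * S.P v)) := by rw [h, smul_mul_assoc, mul_assoc, ← h]
      _ = (c * c) • (S.P w * S.P w * (g : 𝕄)) := by rw [h, mul_smul_comm, smul_smul, mul_assoc]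
      _ = _ := by rw [S.cP_sq hg, one_smul, S.sq, smul_mul_assoc, one_mul]
  exact smul_left_injective F (Units.ne_zero g) e

theorem act_mul (hg : g ∈ S.N) (hh : h ∈ S.N) (v : L k) :
    S.sP (g * h) v = S.sP g (S.sP h v) ∧ S.cP (g * h) v = S.cP h v * S.cP g (S.sP h v) := by
  refine S.act_unique (mul_mem hg hh) ?_
  rw [Units.val_mul, mul_assoc, S.act_spec hh, mul_smul_comm, ← mul_assoc, S.act_spec hg,
    smul_mul_assoc, smul_smul, mul_assoc]

theorem act_one (v : L k) : S.sP 1 v = v := (S.act_unique (one_mem _) (c := 1) (by simp)).1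

theorem act_congr (hg : g ∈ S.N) (hh : h ∈ S.N) {a : F} (hgh : (g : 𝕄) = a • (h : 𝕄)) (v : L k) :
    S.sP g v = S.sP h v ∧ S.cP g v = S.cP h v := by
  refine S.act_unique hg ?_
  rw [hgh, smul_mul_assoc, S.act_spec hh, mul_smul_comm, smul_comm]

theorem act_gl (u v : L k) : S.sP (S.gl u) v = v ∧ S.cP (S.gl u) v = sgn F (S.B u v) :=
  S.act_unique (S.gl_mem_N u) (S.comm u v)

theorem act_add (hg : g ∈ S.N) (v w : L k) :
    S.sP g (v + w) = S.sP g v + S.sP g w := by
  obtain ⟨c, hc0, hc⟩ := S.P_add_coeff v w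
  obtain ⟨d, hd0, hd⟩ := S.P_add_coeff (S.sP g v) (S.sP g w)
  refine (S.act_unique hg (c := c * S.cP g v * S.cP g w * d⁻¹) ?_).1
  rw [hc, mul_smul_comm, ← mul_assoc, S.act_spec hg v, smul_mul_assoc, mul_assoc, S.act_spec hg w,
    mul_smul_comm, smul_smul, smul_smul, hd, smul_mul_assoc, smul_smul, ← mul_assoc,
    inv_mul_cancel_right₀ hd0]

theorem act_B (h2 : (2 : F) ≠ 0) (hg : g ∈ S.N) (v w : L k) : S.B (S.sP g v) (S.sP g w) = S.B v w := by
  have h := S.act_q h2 hg (v + w)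
  rw [S.act_add hg, S.q_add, S.q_add, S.act_q h2 hg, S.act_q h2 hg] at h
  exact add_left_cancel h

theorem B_surj (f : L k →ₗ[ZMod 2] ZMod 2) : ∃ u, ∀ w, S.B u w = f w := by
  have hi : Function.Injective S.B := by
    rw [← LinearMap.ker_eq_bot, Submodule.eq_bot_iff]
    intro v hv
    exact S.nondeg v fun w => by rw [LinearMap.mem_ker.1 hv]; rfl
  obtain ⟨u, hu⟩ := (LinearMap.injective_iff_surjective_of_finrank_eq_finrank
    (Module.finrank_linearMap_self (ZMod 2) (ZMod 2) (L k)).symm).1 hi f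
  exact ⟨u, fun w => LinearMap.congr_fun hu w⟩

/-- An element fixing every label is a system element up to sign. -/
theorem exists_of_fixed (h2 : (2 : F) ≠ 0) (hg : g ∈ S.N) (hfix : ∀ v, S.sP g v = v) :
    ∃ (u : L k) (c : F), c * c = 1 ∧ (g : 𝕄) = c • S.P u := by
  classical
  let f : L k → ZMod 2 := fun v => if S.cP g v = 1 then 0 else 1
  have hf : ∀ v, sgn F (f v) = S.cP g v := by
    intro v
    simp only [f]
    split
    · next h => rw [sgn_zero, h]
    · next h => rw [sgn_one]; exact ((mul_self_eq_one_iff.1 (S.cP_sq hg v)).resolve_left h).symm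
  have hcadd : ∀ v w, S.cP g (v + w) = S.cP g v * S.cP g w := by
    intro v w
    obtain ⟨c, hc0, hc⟩ := S.P_add_coeff v w
    refine (S.act_unique hg (w := v + w) ?_).2
    rw [hc, mul_smul_comm, ← mul_assoc, S.act_spec hg v, hfix, smul_mul_assoc, mul_assoc,
      S.act_spec hg w, hfix, mul_smul_comm, smul_smul, smul_smul, smul_mul_assoc, smul_smul, mul_assoc]
    congr 1
    · ring
    · rw [mul_assoc]
  obtain ⟨u, hu⟩ := S.B_surj (AddMonoidHom.toZModLinearMap 2 (AddMonoidHom.mk' f fun v w =>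
    sgn_inj h2 (by rw [sgn_add, hf, hf, hf, hcadd])))
  obtain ⟨c, hc⟩ := S.eq_scalar_of_commute (X := (g : 𝕄) * ((S.gl u)⁻¹ : GL ι F)) fun v => by
    have huv : sgn F (S.B u v) = S.cP g v := by rw [hu]; exact hf v
    show (g : 𝕄) * (sgn F (S.q u) • S.P u) * S.P v = S.P v * ((g : 𝕄) * (sgn F (S.q u) • S.P u))
    simp only [mul_smul_comm, smul_mul_assoc]
    congr 1
    rw [mul_assoc, S.comm u v, mul_smul_comm, ← mul_assoc, S.act_spec hg, smul_mul_assoc, smul_smul,
      huv, S.cP_sq hg, one_smul, hfix, mul_assoc]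
  have e : (g : 𝕄) = c • S.P u := by
    have := congrArg (fun Y : 𝕄 => Y * S.P u) hc
    simp only [mul_assoc] at this
    rwa [← coe_gl, Units.inv_mul, mul_one, smul_mul_assoc, one_mul] at this
  exact ⟨u, c, S.smul_sq_eq_one hg.1 (S.gl_mem_isom u) e, e⟩

end Sys

end CfsgLib.Geometric.OrthType
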