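import Cfsg.Agent.Lib.Geometric.OrthType.Transitive

/-!
The products of two transvections at anisotropic labels lie in the commutator subgroup of the normaliser.
-/

set_option autoImplicit false
set_option linter.unusedSectionVars false

namespace CfsgLib.Geometric.OrthType

open Module CfsgLib.Geometric
open CfsgLib.Geometric.SympType (Quad zmod2_cases)

variable {k : ℕ} {ι : Type} [Fintype ι] [DecidableEq ι] {F : Type*} [Field F]

namespace Sys

variable (S : Sys k ι F)

theorem sP_tau (h2 : (2 : F) ≠ 0) {h : GL ι F} (hh : h ∈ S.N) (x z : L k) :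
    S.sP h (S.tau x z) = S.tau (S.sP h x) (S.sP h z) := by
  rw [tau, tau, S.act_add hh, S.act_B h2 hh]
  rcases zmod2_cases (S.B z x) with e | e <;> rw [e]
  · have h0 : S.sP h 0 = 0 := by
      have := S.act_add hh 0 0
      rw [add_zero] at this
      exact add_eq_left.1 this.symm
    rw [zero_smul, zero_smul, h0]
  · rw [one_smul, one_smul]

/-- The commutator subgroup induces the products of two transvections at anisotropic labels with product one. -/
theorem exists_pair_mem_D_one (hk : 3 ≤ k) (h2 : (2 : F) ≠ 0) {v w : L k} (hv : S.q v = 1) (hw : S.q w = 1)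
    (hvw : S.B v w = 1) : ∃ n ∈ S.D, ∀ z, S.sP n z = S.tau v (S.tau w z) := by
  let Q := S.quad
  obtain ⟨u, hu, hu1⟩ := Q.exists_coset
    (W := Q.perp (Submodule.span (ZMod 2) ((({v, w} : Finset (L k)) : Set (L k)))))
    (by have := Q.le_finrank_perp_span ({v, w} : Finset (L k))
        have := Finset.card_le_two (a := v) (b := w); omega) 0 1
  rw [zero_add] at hu1
  have huv : S.B v u = 0 := hu v (Submodule.subset_span (by simp))
  have huw : S.B w u = 0 := hu w (Submodule.subset_span (by simp))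
  have hs : S.q (v + w) = 1 := by rw [S.q_add, hv, hw, hvw]; decide
  set g := S.pairGL h2 (v := w) (w := u) hw hu1 (one_mul 1) (one_mul 1)
  set h := S.pairGL h2 (v := u) (w := v + w) hu1 hs (one_mul 1) (one_mul 1)
  have hgN : g ∈ S.N := S.pairGL_mem_N h2 hw hu1 _ _
  have hhN : h ∈ S.N := S.pairGL_mem_N h2 hu1 hs _ _
  have hD : h * g * h⁻¹ * g⁻¹ ∈ S.D := Subgroup.commutator_mem_commutator hhN hgN
  refine ⟨_, hD, fun z => ?_⟩
  have hG : ∀ y, S.sP g y = S.tau w (S.tau u y) := fun y => S.sP_pairGL h2 hw hu1 _ _ y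
  have hH : ∀ y, S.sP h y = S.tau u (S.tau (v + w) y) := fun y => S.sP_pairGL h2 hu1 hs _ _ y
  have hhu : S.sP h u = u := by
    rw [hH, show S.tau (v + w) u = u by
      rw [tau, map_add, S.sk u v, huv, S.sk u w, huw, add_zero, zero_smul, add_zero],
      tau, S.B_self, zero_smul, add_zero]
  have hhw : S.sP h w = v := by
    rw [hH, show S.tau (v + w) w = v by
      rw [tau, map_add, S.sk w v, hvw, S.B_self, add_zero, one_smul, add_left_comm, two_torsion, add_zero],
      tau, huv, zero_smul, add_zero]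
  set y := S.tau u (S.tau w z)
  set z₀ := S.sP h⁻¹ y
  have hz₀ : S.sP h z₀ = y := by rw [← (S.act_mul hhN (inv_mem hhN) y).1, mul_inv_cancel, S.act_one]
  have e1 : S.sP (g * h) z₀ = z := by
    rw [(S.act_mul hgN hhN _).1, hz₀, hG, S.tau_tau hu1, S.tau_tau hw]
  have e2 : S.sP (h * g) z₀ = S.tau v (S.tau w z) := by
    rw [(S.act_mul hhN hgN _).1, hG, S.sP_tau h2 hhN, S.sP_tau h2 hhN, hhw, hhu, hz₀, S.tau_tau hu1]
  have key : h * g * h⁻¹ * g⁻¹ * (g * h) = h * g := by group
  have e4 := (S.act_mul (S.D_le_N hD) (mul_mem hgN hhN) z₀).1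
  rw [key, e1, e2] at e4
  exact e4.symm

/-- The commutator subgroup induces all products of two transvections at anisotropic labels. -/
theorem exists_pair_mem_D (hk : 3 ≤ k) (h2 : (2 : F) ≠ 0) {v w : L k} (hv : S.q v = 1) (hw : S.q w = 1) :
    ∃ n ∈ S.D, ∀ z, S.sP n z = S.tau v (S.tau w z) := by
  rcases eq_or_ne v w with rfl | hne
  · exact ⟨1, one_mem _, fun z => by rw [S.act_one, S.tau_tau hv]⟩
  rcases zmod2_cases (S.B v w) with h0 | h1
  · let Q := S.quad
    have hv0 : v ≠ 0 := fun e => by rw [e, S.q_zero] at hv; exact zero_ne_one hv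
    have hw0 : w ≠ 0 := fun e => by rw [e, S.q_zero] at hw; exact zero_ne_one hw
    obtain ⟨d, hd1, hd2⟩ := Q.exists_dual hv0 hw0 hne 1 1
    obtain ⟨e, he, hx⟩ := Q.exists_coset
      (W := Q.perp (Submodule.span (ZMod 2) ((({v, w} : Finset (L k)) : Set (L k)))))
      (by have := Q.le_finrank_perp_span ({v, w} : Finset (L k))
          have := Finset.card_le_two (a := v) (b := w); omega) d 1
    have hvx : S.B v (d + e) = 1 := by
      rw [map_add, show S.B v d = 1 from hd1, show S.B v e = 0 from he v (Submodule.subset_span (by simp)),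
        add_zero]
    have hxw : S.B (d + e) w = 1 := by
      rw [S.sk, map_add, show S.B w d = 1 from hd2,
        show S.B w e = 0 from he w (Submodule.subset_span (by simp)), add_zero]
    obtain ⟨n, hn, hn'⟩ := S.exists_pair_mem_D_one hk h2 hv hx hvx
    obtain ⟨m, hm, hm'⟩ := S.exists_pair_mem_D_one hk h2 hx hw hxw
    exact ⟨n * m, mul_mem hn hm, fun z => by
      rw [(S.act_mul (S.D_le_N hn) (S.D_le_N hm) z).1, hm', hn', S.tau_tau hx]⟩
  · exact S.exists_pair_mem_D_one hk h2 hv hw h1

/-- An element of the normaliser acting on the labels as an element of the commutator subgroup lies in it. -/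
theorem mem_D_of_sP_eq (hk : 3 ≤ k) (h2 : (2 : F) ≠ 0) {n g : GL ι F} (hn : n ∈ S.D) (hg : g ∈ S.N)
    (h : ∀ z, S.sP g z = S.sP n z) : g ∈ S.D := by
  have hnN := S.D_le_N hn
  obtain ⟨x, c, hc, e⟩ := S.exists_of_fixed h2 (mul_mem (inv_mem hnN) hg) fun z => by
    rw [(S.act_mul (inv_mem hnN) hg z).1, h, ← (S.act_mul (inv_mem hnN) hnN z).1, inv_mul_cancel, S.act_one]
  have := mul_mem hn (S.smul_gl_mem_D hk h2 hc e)
  rwa [mul_inv_cancel_left] at this

/-- The products of two elements `1 + ε P v` over two lie in the commutator subgroup. -/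
theorem pairGL_mem_D (hk : 3 ≤ k) (h2 : (2 : F) ≠ 0) {v w : L k} (hv : S.q v = 1) (hw : S.q w = 1)
    {ε η : F} (hε : ε * ε = 1) (hη : η * η = 1) : S.pairGL h2 hv hw hε hη ∈ S.D := by
  obtain ⟨n, hn, h⟩ := S.exists_pair_mem_D hk h2 hv hw
  exact S.mem_D_of_sP_eq hk h2 hn (S.pairGL_mem_N h2 hv hw hε hη) fun z => by
    rw [h, S.sP_pairGL h2 hv hw hε hη]

end Sys

end CfsgLib.Geometric.OrthType
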