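import Cfsg.Agent.Lib.Geometric.OrthType.EllSplitDef
import Cfsg.Agent.Lib.Geometric.TensorOrth.Perfect

/-!
A plus type system splits along two non-singular labels with product one into a minus type system
on a totally singular half, and the isometries fixing both labels are the symplectic group of it.
-/

set_option autoImplicit false
set_option linter.unusedSectionVars false
set_option linter.style.haveILetI false

namespace CfsgLib.Geometric.OrthType

open Matrix Cfsg.Geo Module CfsgLib.Geometric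
open CfsgLib.Geometric.SympType (zmod2_cases)
open CfsgLib.Geometric.PauliMax (sgn sgn_zero sgn_one)

variable {F : Type*} [Field F]

/-- A matrix commuting with the two model matrices has equal diagonal blocks. -/
private theorem eq_diag_of_commute {m : ℕ} (h2 : (2 : F) ≠ 0)
    (X : Matrix (Fin m ⊕ Fin m) (Fin m ⊕ Fin m) F)
    (hv : X * fromBlocks 1 0 0 (-1) = fromBlocks 1 0 0 (-1) * X)
    (hu : X * fromBlocks 0 1 1 0 = fromBlocks 0 1 1 0 * X) :
    X = fromBlocks X.toBlocks₁₁ 0 0 X.toBlocks₁₁ := by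
  rw [← fromBlocks_toBlocks X] at hv hu
  simp only [fromBlocks_multiply, Matrix.mul_one, Matrix.one_mul, Matrix.mul_zero, Matrix.zero_mul, add_zero,
    zero_add, Matrix.mul_neg, Matrix.neg_mul, fromBlocks_inj] at hv hu
  obtain ⟨-, h12, h21, -⟩ := hv
  have hz : ∀ Y : Matrix ((Fin m)) ((Fin m)) F, -Y = Y → Y = 0 := fun Y h => by
    have : (2 : F) • Y = 0 := by rw [two_smul]; nth_rewrite 1 [← h]; exact neg_add_cancel Y
    exact (smul_eq_zero.1 this).resolve_left h2
  have h0 : X.toBlocks₁₂ = 0 := hz _ h12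
  have h0' : X.toBlocks₂₁ = 0 := hz _ h21.symm
  conv_lhs => rw [← fromBlocks_toBlocks X, h0, h0']
  rw [hu.2.1]

namespace EllSplit

variable {k : ℕ} {ι : Type} [Fintype ι] [DecidableEq ι]
variable {S : Sys (k + 1) ι F} {b c : L (k + 1)} (sp : EllSplit S b c)

local notation "𝕂" => Matrix (SympType.K k) (SympType.K k) F

theorem psi_inj : Function.Injective sp.psi := fun A B h => Units.ext (by
  have e := sp.Φ_psi A
  rw [h, sp.Φ_psi] at e
  exact (fromBlocks_inj.1 e).1.symm)

/-- The action of `psi A` in coordinates. -/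
theorem ap_psi (A : GL (SympType.K k) F) (z : SympType.K k ⊕ SympType.K k → F) :
    ap (sp.psi A) (sp.E z) = sp.E (Sum.elim (ap A (z ∘ Sum.inl)) (ap A (z ∘ Sum.inr))) := by
  rw [ap_def, sp.Φ_spec, sp.Φ_psi, fromBlocks_mulVec]
  simp [ap_def]

theorem psi_mem_isom {A : GL (SympType.K k) F} :
    sp.psi A ∈ isom S.f ↔ A ∈ isom sp.T.f := by
  have h0 : sp.T.f 0 0 = 0 := sp.T.hf.alternating 0
  constructor
  · intro h
    refine mem_isom_iff.2 fun u v => ?_
    have e := mem_isom_iff.1 h (sp.E (Sum.elim u 0)) (sp.E (Sum.elim 0 v))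
    simpa [ap_psi, sp.f_E, h0, ap_zero] using e
  · intro h
    refine mem_isom_iff.2 fun u v => ?_
    obtain ⟨u, rfl⟩ := sp.E.surjective u
    obtain ⟨v, rfl⟩ := sp.E.surjective v
    rw [sp.ap_psi, sp.ap_psi, sp.f_E, sp.f_E, Sum.elim_comp_inl, Sum.elim_comp_inr, Sum.elim_comp_inl,
      Sum.elim_comp_inr, mem_isom_iff.1 h, mem_isom_iff.1 h]

theorem psi_comm_b (A : GL (SympType.K k) F) :
    ((sp.psi A : GL ι F) : Matrix ι ι F) * S.P b = S.P b * ((sp.psi A : GL ι F) : Matrix ι ι F) :=
  sp.Φ_inj (by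
    rw [map_mul, map_mul, sp.Φ_psi, sp.P_b]
    simp [fromBlocks_multiply])

theorem psi_comm_c (A : GL (SympType.K k) F) :
    ((sp.psi A : GL ι F) : Matrix ι ι F) * S.P c = S.P c * ((sp.psi A : GL ι F) : Matrix ι ι F) :=
  sp.Φ_inj (by
    rw [map_mul, map_mul, sp.Φ_psi, sp.P_c]
    simp [fromBlocks_multiply])

theorem exists_psi (h2 : (2 : F) ≠ 0) {g : GL ι F}
    (hb : (g : Matrix ι ι F) * S.P b = S.P b * (g : Matrix ι ι F))
    (hc : (g : Matrix ι ι F) * S.P c = S.P c * (g : Matrix ι ι F)) :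
    ∃ A : GL (SympType.K k) F, sp.psi A = g := by
  have hJ : sp.x • sp.Φ (S.P b) + sp.y • sp.Φ (S.P c) = fromBlocks 1 0 0 (-1) := by
    rw [sp.P_b, sp.P_c, fromBlocks_smul, fromBlocks_smul, fromBlocks_add]
    simp only [smul_smul, ← add_smul]
    rw [show sp.x * -sp.x + sp.y * -sp.y = 1 by linear_combination -sp.hxy,
      show sp.x * -sp.y + sp.y * sp.x = 0 by ring,
      show sp.x * sp.x + sp.y * sp.y = -1 from sp.hxy]
    simp
  have hK : sp.y • sp.Φ (S.P b) + (-sp.x) • sp.Φ (S.P c) = fromBlocks 0 1 1 0 := by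
    rw [sp.P_b, sp.P_c, fromBlocks_smul, fromBlocks_smul, fromBlocks_add]
    simp only [smul_smul, ← add_smul]
    rw [show sp.y * -sp.x + -sp.x * -sp.y = 0 by ring,
      show sp.y * -sp.y + -sp.x * sp.x = 1 by linear_combination -sp.hxy,
      show sp.y * sp.x + -sp.x * sp.y = 0 by ring]
    simp
  have key : ∀ h : GL ι F, (h : Matrix ι ι F) * S.P b = S.P b * (h : Matrix ι ι F) →
      (h : Matrix ι ι F) * S.P c = S.P c * (h : Matrix ι ι F) →
      sp.Φ (h : Matrix ι ι F) =
        fromBlocks (sp.Φ (h : Matrix ι ι F)).toBlocks₁₁ 0 0 (sp.Φ (h : Matrix ι ι F)).toBlocks₁₁ := by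
    intro h hhb hhc
    have eb := congrArg sp.Φ hhb
    have ec := congrArg sp.Φ hhc
    rw [map_mul, map_mul] at eb ec
    refine eq_diag_of_commute h2 _ ?_ ?_
    · rw [← hJ, mul_add, add_mul, mul_smul_comm, mul_smul_comm, smul_mul_assoc, smul_mul_assoc, eb, ec]
    · rw [← hK, mul_add, add_mul, mul_smul_comm, mul_smul_comm, smul_mul_assoc, smul_mul_assoc, eb, ec]
  have hgb : ((g⁻¹ : GL ι F) : Matrix ι ι F) * S.P b = S.P b * ((g⁻¹ : GL ι F) : Matrix ι ι F) :=
    Commute.units_inv_left (show Commute ((g : GL ι F) : Matrix ι ι F) (S.P b) from hb)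
  have hgc : ((g⁻¹ : GL ι F) : Matrix ι ι F) * S.P c = S.P c * ((g⁻¹ : GL ι F) : Matrix ι ι F) :=
    Commute.units_inv_left (show Commute ((g : GL ι F) : Matrix ι ι F) (S.P c) from hc)
  have e1 : sp.Φ (g : Matrix ι ι F) * sp.Φ ((g⁻¹ : GL ι F) : Matrix ι ι F) = 1 := by
    rw [← map_mul, Units.mul_inv, map_one]
  have e2 : sp.Φ ((g⁻¹ : GL ι F) : Matrix ι ι F) * sp.Φ (g : Matrix ι ι F) = 1 := by
    rw [← map_mul, Units.inv_mul, map_one]
  rw [key g hb hc, key g⁻¹ hgb hgc, fromBlocks_multiply, ← fromBlocks_one] at e1 e2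
  simp only [mul_zero, zero_mul, add_zero, zero_add, fromBlocks_inj] at e1 e2
  refine ⟨⟨_, _, e1.1, e2.1⟩, Units.ext (sp.Φ_inj ?_)⟩
  rw [sp.Φ_psi]
  exact (key g hb hc).symm

include sp in
theorem span_labels : Submodule.span (ZMod 2) (Set.range sp.φ ∪ {b, c}) = ⊤ := by
  refine eq_top_iff.2 fun w _ => ?_
  obtain ⟨v, d, e, rfl⟩ := sp.cases w
  refine Submodule.add_mem _ (Submodule.add_mem _ (Submodule.subset_span (Or.inl ⟨v, rfl⟩))
    (Submodule.smul_mem _ _ (Submodule.subset_span (Or.inr (Or.inl rfl)))))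
    (Submodule.smul_mem _ _ (Submodule.subset_span (Or.inr (Or.inr rfl))))

theorem psi_mem_N {A : GL (SympType.K k) F} (hA : A ∈ sp.T.N) : sp.psi A ∈ S.N := by
  refine ⟨sp.psi_mem_isom.2 hA.1, S.perm_of_closure sp.span_labels fun v hv => ?_⟩
  rcases hv with ⟨v, rfl⟩ | rfl | rfl
  · obtain ⟨w, t, h⟩ := hA.2 v
    refine ⟨sp.φ w, t, sp.Φ_inj ?_⟩
    rw [map_mul, map_smul sp.Φ, map_mul, sp.Φ_psi, sp.P_φ, sp.P_φ, fromBlocks_multiply, fromBlocks_multiply,
      fromBlocks_smul]
    simp [h]
  · exact ⟨v, 1, by rw [one_smul]; exact sp.psi_comm_b A⟩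
  · exact ⟨v, 1, by rw [one_smul]; exact sp.psi_comm_c A⟩

/-- The elements acting by a label on both blocks. -/
theorem psi_gl (v : L k) : sp.psi (sp.T.gl v) = S.gl (sp.φ v) :=
  Units.ext (sp.Φ_inj (by rw [sp.Φ_psi, Sys.coe_gl, sp.P_φ, SympType.Sys.coe_gl]))

/-- The symplectic group of the half lies in the commutator subgroup of the isometry group. -/
theorem psi_mem_commutator (h2 : (2 : F) ≠ 0) (hk : 2 ≤ k) {A : GL (SympType.K k) F}
    (hA : A ∈ isom sp.T.f) : sp.psi A ∈ ⁅isom S.f, isom S.f⁆ := by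
  have h4 : 4 ≤ 2 ^ k := le_trans (by norm_num) (Nat.pow_le_pow_right two_pos hk)
  have hle : (isom sp.T.f).map sp.psi ≤ isom S.f :=
    Subgroup.map_le_iff_le_comap.2 fun B hB => sp.psi_mem_isom.2 hB
  have h := TensorOrth.isom_le_commutator sp.T.hf (Or.inr (Or.inl ⟨h2, h4⟩)) hA
  have h' : sp.psi A ∈ (⁅isom sp.T.f, isom sp.T.f⁆).map sp.psi := ⟨A, h, rfl⟩
  rw [Subgroup.map_commutator] at h'
  exact Subgroup.commutator_mono hle hle h'

/-- The normaliser of the half lies in the normaliser, inside the commutator subgroup. -/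
theorem psi_mem_inf (h2 : (2 : F) ≠ 0) (hk : 2 ≤ k) {A : GL (SympType.K k) F} (hA : A ∈ sp.T.N) :
    sp.psi A ∈ S.N ⊓ ⁅isom S.f, isom S.f⁆ :=
  ⟨sp.psi_mem_N hA, sp.psi_mem_commutator h2 hk hA.1⟩

end EllSplit

/-- Two anticommuting matrices squaring to one give two blocks. -/
private theorem block_equiv {ι : Type} [Fintype ι] [DecidableEq ι] (h2 : (2 : F) ≠ 0)
    (A U : Module.End F (ι → F)) (hA : ∀ x, A (A x) = x) (hU : ∀ x, U (U x) = x)
    (hAU : ∀ x, A (U x) = - U (A x)) :
    ∃ L : (↥(LinearMap.eqLocus A LinearMap.id) × ↥(LinearMap.eqLocus A LinearMap.id)) ≃ₗ[F] (ι → F),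
      ∀ p, L p = (p.1 : ι → F) + U (p.2 : ι → F) := by
  set E := LinearMap.eqLocus A LinearMap.id with hE
  let L : (↥E × ↥E) →ₗ[F] (ι → F) := E.subtype.coprod (U.comp E.subtype)
  have hfix : ∀ q : E, A (q : ι → F) = q := fun q => q.2
  refine ⟨LinearEquiv.ofBijective L ⟨?_, ?_⟩, fun p => rfl⟩
  · rw [← LinearMap.ker_eq_bot, LinearMap.ker_eq_bot']
    intro p hp
    have hp' : (p.1 : ι → F) + U (p.2 : ι → F) = 0 := hp
    have hA' := congrArg A hp'
    rw [map_add, hfix, hAU, hfix, map_zero] at hA'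
    have h1 : (2 : F) • (p.1 : ι → F) = 0 := by
      rw [two_smul]
      calc (p.1 : ι → F) + (p.1 : ι → F) =
          ((p.1 : ι → F) + U (p.2 : ι → F)) + ((p.1 : ι → F) + -U (p.2 : ι → F)) := by abel
        _ = 0 := by rw [hp', hA', add_zero]
    have h1' : (p.1 : ι → F) = 0 := (smul_eq_zero.1 h1).resolve_left h2
    rw [h1', zero_add] at hp'
    have h2' := congrArg U hp'
    rw [hU, map_zero] at h2'
    exact Prod.ext (Subtype.ext h1') (Subtype.ext h2')
  · intro z
    refine ⟨(⟨(2 : F)⁻¹ • (z + A z), ?_⟩, ⟨(2 : F)⁻¹ • (U z - U (A z)), ?_⟩), ?_⟩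
    · show A _ = _
      rw [map_smul, map_add, hA, add_comm]; rfl
    · show A _ = _
      rw [map_smul, map_sub, hAU z, hAU (A z), hA]
      simp only [LinearMap.id_apply]
      congr 1
      abel
    · show (2 : F)⁻¹ • (z + A z) + U ((2 : F)⁻¹ • (U z - U (A z))) = z
      rw [map_smul, map_sub, hU, hU, ← smul_add, show z + A z + (z - A z) = (2 : F) • z by
        rw [two_smul]; abel, inv_smul_smul₀ h2]

theorem exists_sq_add_sq_neg_one [Finite F] (h2 : (2 : F) ≠ 0) : ∃ x y : F, x * x + y * y = -1 := by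
  classical
  have := Fintype.ofFinite F
  have hc : ringChar F ≠ 2 := fun he => h2 (by
    have := ringChar.Nat.cast_ringChar (R := F)
    rw [he] at this
    exact_mod_cast this)
  obtain ⟨a, b, hab⟩ := FiniteField.exists_root_sum_quadratic
    (f := Polynomial.X ^ 2) (g := Polynomial.X ^ 2 - Polynomial.C (-1 : F))
    (Polynomial.degree_X_pow 2) (Polynomial.degree_X_pow_sub_C two_pos (-1 : F))
    (FiniteField.odd_card_of_char_ne_two hc)
  simp only [Polynomial.eval_pow, Polynomial.eval_X, Polynomial.eval_sub, Polynomial.eval_C] at hab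
  exact ⟨a, b, by linear_combination hab⟩

/-- Splitting along two non-singular labels with product one. -/
theorem exists_ellSplit [Finite F] {k : ℕ} {ι : Type} [Fintype ι] [DecidableEq ι] (h2 : (2 : F) ≠ 0)
    (S : Sys (k + 1) ι F) {b c : L (k + 1)} (qb : S.q b = 1) (qc : S.q c = 1) (h : S.B b c = 1) :
    Nonempty (EllSplit S b c) := by
  classical
  have hcb : S.B c b = 1 := (S.sk c b).trans h
  obtain ⟨x, y, hxy⟩ := exists_sq_add_sq_neg_one h2
  set MJ := x • S.P b + y • S.P c with hMJ
  set MK := y • S.P b + (-x) • S.P c with hMK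
  have sb : S.P b * S.P b = -1 := by rw [S.sq, qb, sgn_one, neg_one_smul]
  have sc : S.P c * S.P c = -1 := by rw [S.sq, qc, sgn_one, neg_one_smul]
  have sbc : S.P c * S.P b = -(S.P b * S.P c) := by rw [S.comm c b, hcb, sgn_one, neg_one_smul]
  have hone : ∀ t u : F, t * t + u * u = -1 → (t • S.P b + u • S.P c) * (t • S.P b + u • S.P c) = 1 := by
    intro t u htu
    simp only [mul_add, add_mul, smul_mul_assoc, mul_smul_comm, sb, sc, sbc]
    match_scalars
    · linear_combination -htu
    · ring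
  have hJ1 : MJ * MJ = 1 := hone x y hxy
  have hK1 : MK * MK = 1 := hone y (-x) (by rw [neg_mul_neg, add_comm, hxy])
  have hJK : MJ * MK = -(MK * MJ) := by
    simp only [hMJ, hMK, mul_add, add_mul, smul_mul_assoc, mul_smul_comm, sb, sc, sbc]
    match_scalars <;> ring
  set A := Matrix.toLin' MJ with hAdef
  set U := Matrix.toLin' MK with hUdef
  have hA : ∀ v, A (A v) = v := fun v => by
    rw [hAdef, ← Matrix.toLin'_mul_apply, hJ1, Matrix.toLin'_one, LinearMap.id_apply]
  have hU : ∀ v, U (U v) = v := fun v => by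
    rw [hUdef, ← Matrix.toLin'_mul_apply, hK1, Matrix.toLin'_one, LinearMap.id_apply]
  have hAU : ∀ v, A (U v) = - U (A v) := fun v => by
    rw [hAdef, hUdef, ← Matrix.toLin'_mul_apply, ← Matrix.toLin'_mul_apply, hJK, map_neg,
      LinearMap.neg_apply]
  set V := LinearMap.eqLocus A LinearMap.id with hVdef
  obtain ⟨Lv, hL⟩ : ∃ Lv : (↥V × ↥V) ≃ₗ[F] (ι → F), ∀ p, Lv p = (p.1 : ι → F) + U (p.2 : ι → F) :=
    block_equiv h2 A U hA hU hAU
  have hVk : Module.finrank F V = 2 ^ k := by
    have h' := Lv.finrank_eq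
    rw [Module.finrank_prod, Module.finrank_pi, S.card, pow_succ] at h'
    omega
  obtain ⟨e⟩ : Nonempty ((SympType.K k → F) ≃ₗ[F] V) :=
    FiniteDimensional.nonempty_linearEquiv_of_finrank_eq (by rw [hVk, Module.finrank_fin_fun])
  let Ψ : (SympType.K k ⊕ SympType.K k → F) ≃ₗ[F] (ι → F) :=
    (LinearEquiv.sumArrowLequivProdArrow (SympType.K k) (SympType.K k) F F).trans
      ((e.prodCongr e).trans Lv)
  have hΨ : ∀ z, Ψ z = (e (z ∘ Sum.inl) : ι → F) + U (e (z ∘ Sum.inr) : ι → F) := fun z =>
    hL ((e.prodCongr e) (LinearEquiv.sumArrowLequivProdArrow (SympType.K k) (SympType.K k) F F z))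
  let Φ : Matrix ι ι F ≃ₐ[F] Matrix (SympType.K k ⊕ SympType.K k) (SympType.K k ⊕ SympType.K k) F :=
    Matrix.toLinAlgEquiv'.trans ((Ψ.symm.conjAlgEquiv F).trans LinearMap.toMatrixAlgEquiv')
  have hΦ : ∀ X z, Ψ (Matrix.mulVec (Φ X) z) = Matrix.mulVec X (Ψ z) := fun X z => by
    have : Matrix.mulVec (Φ X) z = Ψ.symm (Matrix.mulVec X (Ψ z)) := by
      rw [← Matrix.toLinAlgEquiv'_apply]
      simp [Φ, Matrix.toLinAlgEquiv'_apply]
    rw [this, LinearEquiv.apply_symm_apply]
  have hext : ∀ X Y, (∀ z, Matrix.mulVec X (Ψ z) = Ψ (Matrix.mulVec Y z)) → Φ X = Y := fun X Y h =>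
    Matrix.ext_of_mulVec_single fun i => Ψ.injective (by rw [hΦ, h])
  have hfb : ∀ (a b c d : Matrix (SympType.K k) (SympType.K k) F) (z : SympType.K k ⊕ SympType.K k → F),
      (Matrix.mulVec (fromBlocks a b c d) z) ∘ Sum.inl = a *ᵥ (z ∘ Sum.inl) + b *ᵥ (z ∘ Sum.inr) ∧
      (Matrix.mulVec (fromBlocks a b c d) z) ∘ Sum.inr = c *ᵥ (z ∘ Sum.inl) + d *ᵥ (z ∘ Sum.inr) := by
    intro a b c d z
    rw [fromBlocks_mulVec]
    exact ⟨rfl, rfl⟩
  have hfix : ∀ q : V, A (q : ι → F) = q := fun q => q.2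
  have hPJ : Φ MJ = fromBlocks 1 0 0 (-1) := by
    refine hext _ _ fun z => ?_
    obtain ⟨h1, h2'⟩ := hfb 1 0 0 (-1) z
    rw [← Matrix.toLin'_apply, ← hAdef, hΨ, hΨ, h1, h2', map_add, hAU, hfix, hfix]
    simp [Matrix.neg_mulVec]
  have hPK : Φ MK = fromBlocks 0 1 1 0 := by
    refine hext _ _ fun z => ?_
    obtain ⟨h1, h2'⟩ := hfb 0 1 1 0 z
    rw [← Matrix.toLin'_apply, ← hUdef, hΨ, hΨ, h1, h2', map_add, hU]
    simp [add_comm]
  have hPb : Φ (S.P b) = fromBlocks ((-x) • 1) ((-y) • 1) ((-y) • 1) (x • 1) := by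
    have : S.P b = (-x) • MJ + (-y) • MK := by
      rw [hMJ, hMK, smul_add, smul_add, smul_smul, smul_smul, smul_smul, smul_smul]
      calc S.P b = (-x * x + -y * y) • S.P b + (-x * y + -y * -x) • S.P c := by
            rw [show -x * x + -y * y = 1 by linear_combination -hxy, show -x * y + -y * -x = 0 by ring,
              one_smul, zero_smul, add_zero]
        _ = _ := by rw [add_smul, add_smul]; abel
    rw [this, map_add, map_smul, map_smul, hPJ, hPK, fromBlocks_smul, fromBlocks_smul, fromBlocks_add]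
    simp
  have hPc : Φ (S.P c) = fromBlocks ((-y) • 1) (x • 1) (x • 1) (y • 1) := by
    have : S.P c = (-y) • MJ + x • MK := by
      rw [hMJ, hMK, smul_add, smul_add, smul_smul, smul_smul, smul_smul, smul_smul]
      calc S.P c = (-y * x + x * y) • S.P b + (-y * y + x * -x) • S.P c := by
            rw [show -y * x + x * y = 0 by ring, show -y * y + x * -x = 1 by linear_combination -hxy,
              one_smul, zero_smul, zero_add]
        _ = _ := by rw [add_smul, add_smul]; abel
    rw [this, map_add, map_smul, map_smul, hPJ, hPK, fromBlocks_smul, fromBlocks_smul, fromBlocks_add]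
    simp
  -- the form
  have hskew : ∀ (a : L (k + 1)), S.q a = 1 → ∀ u v,
      S.f (Matrix.mulVec (S.P a) u) v = - S.f u (Matrix.mulVec (S.P a) v) := by
    intro a ha u v
    have e := S.isom_P a u (Matrix.mulVec (S.P a) v)
    rw [Matrix.mulVec_mulVec, S.sq, ha, sgn_one, neg_one_smul, Matrix.neg_mulVec, Matrix.one_mulVec,
      S.f_neg_right] at e
    linear_combination -e
  have hcomb : ∀ (s t : F) u v, S.f (Matrix.toLin' (s • S.P b + t • S.P c) u) v =
      - S.f u (Matrix.toLin' (s • S.P b + t • S.P c) v) := by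
    intro s t u v
    simp only [Matrix.toLin'_apply, Matrix.add_mulVec, Matrix.smul_mulVec, S.bil.add_left, S.bil.add_right,
      S.bil.smul_left, S.bil.smul_right, hskew b qb, hskew c qc]
    ring
  have hAskew : ∀ u v, S.f (A u) v = - S.f u (A v) := hcomb x y
  have hUskew : ∀ u v, S.f (U u) v = - S.f u (U v) := hcomb y (-x)
  have hzero : ∀ u v : V, S.f (u : ι → F) (v : ι → F) = 0 := by
    intro u v
    have h1 := hAskew (u : ι → F) (v : ι → F)
    rw [hfix, hfix] at h1
    exact (mul_eq_zero.1 (show (2 : F) * S.f (u : ι → F) (v : ι → F) = 0 by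
      linear_combination h1)).resolve_left h2
  have hUU : ∀ u v : V, S.f (U (u : ι → F)) (U (v : ι → F)) = 0 := by
    intro u v
    rw [hUskew, hU, hzero, neg_zero]
  have hfΨ : ∀ z z', S.f (Ψ z) (Ψ z') = S.f (e (z ∘ Sum.inl) : ι → F) (U (e (z' ∘ Sum.inr) : ι → F)) +
      S.f (e (z' ∘ Sum.inl) : ι → F) (U (e (z ∘ Sum.inr) : ι → F)) := fun z z' => by
    rw [hΨ, hΨ, S.bil.add_left, S.bil.add_right, S.bil.add_right, hzero, hUU, zero_add, add_zero,
      S.symm (U (e (z ∘ Sum.inr) : ι → F))]
  have hTs : IsSymplecticForm fun u v : SympType.K k → F => S.f (e u : ι → F) (U (e v : ι → F)) := by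
    have hsk : ∀ u v : V, S.f (u : ι → F) (U (v : ι → F)) = - S.f (v : ι → F) (U (u : ι → F)) :=
      fun u v => by rw [← hUskew, S.symm]
    refine ⟨⟨fun u v w => ?_, fun t u w => ?_, fun w u v => ?_, fun t w u => ?_⟩, fun v w => hsk _ _,
      fun v => ?_, fun v hv => ?_⟩
    · rw [map_add, Submodule.coe_add, S.bil.add_left]
    · rw [map_smul, Submodule.coe_smul, S.bil.smul_left]
    · rw [map_add, Submodule.coe_add, map_add, S.bil.add_right]
    · rw [map_smul, Submodule.coe_smul, map_smul, S.bil.smul_right]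
    · exact (mul_eq_zero.1 (show (2 : F) * S.f (e v : ι → F) (U (e v : ι → F)) = 0 by
        linear_combination hsk (e v) (e v))).resolve_left h2
    · have hv0 : (e v : ι → F) ≠ 0 := fun h0 => hv (e.map_eq_zero_iff.1 (Subtype.ext h0))
      obtain ⟨w, hw⟩ := (S.nd _ hv0).2
      obtain ⟨z, rfl⟩ := Ψ.surjective w
      rw [hΨ, S.bil.add_right, hzero, zero_add] at hw
      exact ⟨⟨z ∘ Sum.inr, fun h0 => hw (by rw [hsk, h0, neg_zero])⟩, ⟨z ∘ Sum.inr, hw⟩⟩
  -- the labels orthogonal to both
  let cm : L (k + 1) →ₗ[ZMod 2] ZMod 2 × ZMod 2 := (S.B b).prod (S.B c)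
  have hcsurj : Function.Surjective cm := fun p => ⟨p.1 • c + p.2 • b, by
    simp [cm, S.B_self, hcb, h]⟩
  have hker : Module.finrank (ZMod 2) (LinearMap.ker cm) = 2 * k := by
    have h' := LinearMap.finrank_range_add_finrank_ker cm
    rw [LinearMap.range_eq_top.2 hcsurj, finrank_top, Module.finrank_prod, Module.finrank_self,
      Module.finrank_fin_fun] at h'
    omega
  obtain ⟨eW⟩ : Nonempty (L k ≃ₗ[ZMod 2] LinearMap.ker cm) :=
    FiniteDimensional.nonempty_linearEquiv_of_finrank_eq (by rw [hker, Module.finrank_fin_fun])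
  let φ : L k →ₗ[ZMod 2] L (k + 1) := (LinearMap.ker cm).subtype.comp eW.toLinearMap
  have hφinj : Function.Injective φ := (LinearMap.ker cm).injective_subtype.comp eW.injective
  have hφ : ∀ v, S.B b (φ v) = 0 ∧ S.B c (φ v) = 0 := fun v => by
    have h' : cm (eW v : L (k + 1)) = 0 := (eW v).2
    exact ⟨congrArg Prod.fst h', congrArg Prod.snd h'⟩
  have hcases : ∀ w, ∃ (v : L k) (d e : ZMod 2), w = φ v + d • b + e • c := fun w => by
    have hmem : w + S.B c w • b + S.B b w • c ∈ LinearMap.ker cm := by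
      rw [LinearMap.mem_ker]
      simp [cm, S.B_self, hcb, h, CharTwo.add_self_eq_zero]
    refine ⟨eW.symm ⟨_, hmem⟩, S.B c w, S.B b w, ?_⟩
    simp only [φ, LinearMap.coe_comp, Submodule.coe_subtype, Function.comp_apply, LinearEquiv.coe_coe,
      LinearEquiv.apply_symm_apply]
    calc w = w + (S.B c w • b + S.B c w • b) + (S.B b w • c + S.B b w • c) := by
          rw [two_torsion, two_torsion, add_zero, add_zero]
      _ = _ := by abel
  have hcommJ : ∀ v, S.P (φ v) * MJ = MJ * S.P (φ v) ∧ S.P (φ v) * MK = MK * S.P (φ v) := fun v => by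
    have e1 : S.P (φ v) * S.P b = S.P b * S.P (φ v) := by
      rw [S.comm (φ v) b, S.sk (φ v) b, (hφ v).1, sgn_zero, one_smul]
    have e2 : S.P (φ v) * S.P c = S.P c * S.P (φ v) := by
      rw [S.comm (φ v) c, S.sk (φ v) c, (hφ v).2, sgn_zero, one_smul]
    simp only [hMJ, hMK, mul_add, add_mul, mul_smul_comm, smul_mul_assoc, e1, e2, and_self]
  have hdiag : ∀ v, Φ (S.P (φ v)) = fromBlocks (Φ (S.P (φ v))).toBlocks₁₁ 0 0 (Φ (S.P (φ v))).toBlocks₁₁ := by
    intro v
    refine eq_diag_of_commute h2 _ ?_ ?_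
    · rw [← hPJ, ← map_mul, ← map_mul, (hcommJ v).1]
    · rw [← hPK, ← map_mul, ← map_mul, (hcommJ v).2]
  set P : L k → Matrix (SympType.K k) (SympType.K k) F := fun v => (Φ (S.P (φ v))).toBlocks₁₁ with hP
  have hblock : ∀ a b : Matrix (SympType.K k) (SympType.K k) F,
      fromBlocks a 0 0 a = fromBlocks b 0 0 b → a = b := fun a b h => (fromBlocks_inj.1 h).1
  have hmul : ∀ a b : Matrix (SympType.K k) (SympType.K k) F,
      fromBlocks (a * b) 0 0 (a * b) = fromBlocks a 0 0 a * fromBlocks b 0 0 b := fun a b => by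
    simp [fromBlocks_multiply]
  have hel : ∀ u : SympType.K k → F, Ψ (Sum.elim u 0) = (e u : ι → F) ∧
      Ψ (Sum.elim 0 u) = U (e u : ι → F) := fun u => by
    constructor <;> rw [hΨ, Sum.elim_comp_inl, Sum.elim_comp_inr] <;> simp
  let T : SympType.Sys k (SympType.K k) F :=
    { f := fun u v => S.f (e u : ι → F) (U (e v : ι → F))
      hf := hTs
      P := P
      q := fun v => S.q (φ v)
      B := S.B.compl₁₂ φ φ
      q_add := fun v w => by rw [map_add, S.q_add, LinearMap.compl₁₂_apply]
      nondeg := fun v hv => hφinj (by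
        rw [map_zero]
        refine S.nondeg _ fun w => ?_
        obtain ⟨z, d, e', rfl⟩ := hcases w
        have h1 := hv z
        rw [LinearMap.compl₁₂_apply] at h1
        rw [map_add, map_add, map_smul, map_smul, S.sk (φ v) b, S.sk (φ v) c, (hφ v).1, (hφ v).2, h1,
          smul_zero, smul_zero, add_zero, add_zero])
      minus := fun W hW => by
        by_contra hle
        push Not at hle
        obtain ⟨U₀, hU₀, hU₀d⟩ := S.plus
        let BF : LinearMap.BilinForm (ZMod 2) (L (k + 1)) := S.B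
        have hts : ∀ v ∈ U₀, ∀ w ∈ U₀, S.B v w = 0 := fun v hv w hw => by
          have := S.q_add v w
          rw [hU₀ _ (U₀.add_mem hv hw), hU₀ v hv, hU₀ w hw, zero_add, zero_add] at this
          exact this.symm
        set W' := W.map φ with hW'
        have hW'd : k ≤ finrank (ZMod 2) W' := by
          rw [hW', (Submodule.equivMapOfInjective φ hφinj W).finrank_eq.symm]; exact hle
        have hW's : ∀ v ∈ W', S.q v = 0 := by
          rintro _ ⟨v, hv, rfl⟩
          exact hW v hv
        have hW't : ∀ v ∈ W', ∀ w ∈ W', S.B v w = 0 := fun v hv w hw => by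
          have := S.q_add v w
          rw [hW's _ (W'.add_mem hv hw), hW's v hv, hW's w hw, zero_add, zero_add] at this
          exact this.symm
        have hnd : BF.Nondegenerate :=
          ⟨fun v h => S.nondeg v h, fun v h => S.nondeg v fun w => (S.sk v w).trans (h w)⟩
        have hrefl : BF.IsRefl := fun v w h => (S.sk w v).trans h
        -- the orthogonal of `W'`
        set P' := BF.orthogonal W' with hP'
        have hP'd : finrank (ZMod 2) P' = 2 * (k + 1) - finrank (ZMod 2) W' := by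
          rw [hP', LinearMap.BilinForm.finrank_orthogonal hnd, finrank_fin_fun]
        set Z := W' ⊔ Submodule.span (ZMod 2) {b, c} with hZ
        have hspan : Submodule.span (ZMod 2) ({b, c} : Set (L (k + 1))) ≤ P' := by
          rw [Submodule.span_le]
          rintro p (rfl | rfl) w hw <;> obtain ⟨v, hv, rfl⟩ := hw
          · exact (S.sk _ _).trans (hφ v).1
          · exact (S.sk _ _).trans (hφ v).2
        have hsum : ∀ w ∈ W', ∀ d e : ZMod 2, S.q (w + (d • b + e • c)) = S.q (d • b + e • c) := by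
          intro w hw d e'
          obtain ⟨v, hv, rfl⟩ := hw
          rw [S.q_add, hW v hv |> fun h0 => (show S.q (φ v) = 0 from h0), map_add, map_smul, map_smul,
            S.sk (φ v) b, S.sk (φ v) c, (hφ v).1, (hφ v).2, smul_zero, smul_zero, zero_add, add_zero,
            add_zero]
        have haniso : ∀ d e : ZMod 2, S.q (d • b + e • c) = 0 → d • b + e • c = 0 := by
          intro d e' he
          rcases zmod2_cases d with rfl | rfl <;> rcases zmod2_cases e' with rfl | rfl <;>
            simp [qb, qc, S.q_add, h, S.q_zero] at he ⊢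
          exact absurd he (by decide)
        have hZP : Z ≤ P' := sup_le (fun v hv w hw => hW't w hw v hv) hspan
        have hinf : W' ⊓ Submodule.span (ZMod 2) ({b, c} : Set (L (k + 1))) = ⊥ := by
          rw [eq_bot_iff]
          rintro p ⟨hp, hp'⟩
          obtain ⟨d, e', rfl⟩ := Submodule.mem_span_pair.1 hp'
          exact haniso d e' (hW's _ hp)
        have hbc : finrank (ZMod 2) (Submodule.span (ZMod 2) ({b, c} : Set (L (k + 1)))) = 2 := by
          have hli : LinearIndependent (ZMod 2) ![b, c] := by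
            rw [LinearIndependent.pair_iff]
            intro s t hst
            have h1 := congrArg (S.B b) hst
            have h2' := congrArg (S.B c) hst
            simp [S.B_self, h, hcb] at h1 h2'
            exact ⟨h2', h1⟩
          have := finrank_span_eq_card hli
          rw [Fintype.card_fin] at this
          rwa [show Set.range ![b, c] = ({b, c} : Set (L (k + 1))) by
            simp [Matrix.range_cons, Matrix.range_empty, Set.union_singleton, Set.pair_comm]] at this
        have hZd : finrank (ZMod 2) Z = finrank (ZMod 2) W' + 2 := by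
          have := Submodule.finrank_sup_add_finrank_inf_eq W' (Submodule.span (ZMod 2) {b, c})
          rw [hinf, hbc, finrank_bot, add_zero] at this
          exact this
        have hZeq : Z = P' := Submodule.eq_of_le_of_finrank_le hZP (by
          have := Submodule.finrank_mono hZP
          omega)
        have hWd' : finrank (ZMod 2) W' = k := by
          have := Submodule.finrank_mono hZP
          omega
        -- the totally singular witness meets the orthogonal only inside `W'`
        have hmeet : U₀ ⊓ P' ≤ U₀ ⊓ W' := by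
          rintro p ⟨hp, hp'⟩
          rw [← hZeq] at hp'
          obtain ⟨w, hw, r, hr, rfl⟩ := Submodule.mem_sup.1 hp'
          obtain ⟨d, e', rfl⟩ := Submodule.mem_span_pair.1 hr
          have h0 := hU₀ _ hp
          rw [hsum w hw d e'] at h0
          rw [haniso d e' h0, add_zero] at hp ⊢
          exact ⟨hp, hw⟩
        have hperp : U₀ ⊔ W' ≤ BF.orthogonal (U₀ ⊓ W') := by
          refine sup_le (fun v hv w hw => hts w hw.1 v hv) fun v hv w hw => hW't w hw.2 v hv
        have h1 := Submodule.finrank_sup_add_finrank_inf_eq U₀ W'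
        have h3 := Submodule.finrank_mono hperp
        rw [LinearMap.BilinForm.finrank_orthogonal hnd, finrank_fin_fun] at h3
        have h4 := Submodule.finrank_sup_add_finrank_inf_eq U₀ P'
        have h5 := Submodule.finrank_mono hmeet
        have hsup : U₀ ⊔ P' ≤ BF.orthogonal (U₀ ⊓ W') := by
          refine sup_le (fun v hv w hw => hts w hw.1 v hv) fun v hv w hw => ?_
          exact hrefl v w (hrefl w v (hv w hw.2))
        have h6 := Submodule.finrank_mono hsup
        rw [LinearMap.BilinForm.finrank_orthogonal hnd, finrank_fin_fun] at h6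
        have h7 := Submodule.finrank_le (U₀ ⊓ W')
        rw [finrank_fin_fun] at h7
        omega
      zero := by
        refine hblock _ _ ?_
        rw [← hdiag, map_zero, S.zero, map_one, fromBlocks_one]
      sq := fun v => by
        refine hblock _ _ ?_
        rw [hmul, ← hdiag, ← map_mul, S.sq, map_smul, map_one]
        rw [← fromBlocks_one, fromBlocks_smul, smul_zero]
      comm := fun v w => by
        refine hblock _ _ ?_
        rw [hmul, ← hdiag, ← hdiag, ← map_mul, S.comm, map_smul, map_mul, hdiag v, hdiag w, ← hmul,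
          fromBlocks_smul, smul_zero, LinearMap.compl₁₂_apply]
      add := fun v w => by
        obtain ⟨t, ht⟩ := S.add (φ v) (φ w)
        refine ⟨t, hblock _ _ ?_⟩
        rw [← hdiag, map_add, ht, map_smul, map_mul, hdiag v, hdiag w, ← hmul, fromBlocks_smul, smul_zero]
      li := by
        have hli : LinearIndependent F fun v => Φ (S.P (φ v)) :=
          (S.li.comp φ hφinj).map' Φ.toLinearEquiv.toLinearMap Φ.toLinearEquiv.ker
        let ιd : Matrix (SympType.K k) (SympType.K k) F →ₗ[F]
            Matrix (SympType.K k ⊕ SympType.K k) (SympType.K k ⊕ SympType.K k) F :=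
          { toFun := fun a => fromBlocks a 0 0 a
            map_add' := fun a b => by simp [fromBlocks_add]
            map_smul' := fun t a => by simp [fromBlocks_smul] }
        exact LinearIndependent.of_comp ιd (by
          convert hli using 1
          funext v
          exact (hdiag v).symm)
      card := Fintype.card_fin _
      isom_P := fun v u u' => by
        have h1 : ∀ u : SympType.K k → F, (e (P v *ᵥ u) : ι → F) = S.P (φ v) *ᵥ (e u : ι → F) ∧
            U (e (P v *ᵥ u) : ι → F) = S.P (φ v) *ᵥ U (e u : ι → F) := fun u => by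
          constructor
          · rw [← (hel _).1, ← (hel _).1, ← hΦ]
            congr 1
            rw [hdiag v, fromBlocks_mulVec]
            simp [hP]
          · rw [← (hel _).2, ← (hel _).2, ← hΦ]
            congr 1
            rw [hdiag v, fromBlocks_mulVec]
            simp [hP]
        show S.f _ _ = S.f _ _
        rw [(h1 u).1, (h1 u').2, S.isom_P] }
  exact ⟨⟨qb, qc, h, x, y, hxy, T, φ, hφinj, fun v => rfl, hφ, hcases, Ψ, Φ,
    fun X z => (hΦ X z).symm, hfΨ, hPb, hPc, hdiag⟩⟩

end CfsgLib.Geometric.OrthType
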