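import Cfsg.Agent.Lib.Geometric.OrthType.Sys
import Cfsg.Agent.Lib.Geometric.SympType.SplitDef

/-!
The splitting of a plus type system along two non-singular labels with product one: two totally
singular blocks, on which the labels orthogonal to both act by the same matrices of a minus type
system, for the symplectic form obtained by pairing the blocks.
-/

set_option autoImplicit false
set_option linter.unusedSectionVars false

namespace CfsgLib.Geometric.OrthType

open Matrix Cfsg.Geo CfsgLib.Geometric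

variable {k : ℕ} {ι : Type} [Fintype ι] [DecidableEq ι] {F : Type*} [Field F]

/-- Coordinates in which `P b` and `P c` are scalar block matrices and the labels orthogonal to both
act by the same matrices of the minus type system `T` on the two blocks. -/
structure EllSplit (S : Sys (k + 1) ι F) (b c : L (k + 1)) where
  q_b : S.q b = 1
  q_c : S.q c = 1
  B_bc : S.B b c = 1
  x : F
  y : F
  hxy : x * x + y * y = -1
  T : SympType.Sys k (SympType.K k) F
  φ : L k →ₗ[ZMod 2] L (k + 1)
  φ_inj : Function.Injective φ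
  q_φ : ∀ v, S.q (φ v) = T.q v
  perp : ∀ v, S.B b (φ v) = 0 ∧ S.B c (φ v) = 0
  cases : ∀ w, ∃ (v : L k) (d e : ZMod 2), w = φ v + d • b + e • c
  E : ((SympType.K k ⊕ SympType.K k) → F) ≃ₗ[F] (ι → F)
  Φ : Matrix ι ι F ≃ₐ[F] Matrix (SympType.K k ⊕ SympType.K k) (SympType.K k ⊕ SympType.K k) F
  Φ_spec : ∀ X z, X *ᵥ E z = E (Φ X *ᵥ z)
  f_E : ∀ z z', S.f (E z) (E z') =
    T.f (z ∘ Sum.inl) (z' ∘ Sum.inr) + T.f (z' ∘ Sum.inl) (z ∘ Sum.inr)
  P_b : Φ (S.P b) = fromBlocks ((-x) • 1) ((-y) • 1) ((-y) • 1) (x • 1)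
  P_c : Φ (S.P c) = fromBlocks ((-y) • 1) (x • 1) (x • 1) (y • 1)
  P_φ : ∀ v, Φ (S.P (φ v)) = fromBlocks (T.P v) 0 0 (T.P v)

namespace EllSplit

variable {S : Sys (k + 1) ι F} {b c : L (k + 1)} (sp : EllSplit S b c)

local notation "𝕂" => Matrix (SympType.K k) (SympType.K k) F

theorem Φ_inj {X Y : Matrix ι ι F} (h : sp.Φ X = sp.Φ Y) : X = Y := sp.Φ.injective h

/-- The same matrix on both blocks. -/
def psi : GL (SympType.K k) F →* GL ι F where
  toFun A :=
    { val := sp.Φ.symm (fromBlocks (A : 𝕂) 0 0 (A : 𝕂))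
      inv := sp.Φ.symm (fromBlocks ((A⁻¹ : GL (SympType.K k) F) : 𝕂) 0 0
        ((A⁻¹ : GL (SympType.K k) F) : 𝕂))
      val_inv := by rw [← map_mul, fromBlocks_multiply]; simp
      inv_val := by rw [← map_mul, fromBlocks_multiply]; simp }
  map_one' := by ext : 1; simp
  map_mul' A B := by
    ext : 1
    show sp.Φ.symm _ = sp.Φ.symm _ * sp.Φ.symm _
    rw [← map_mul, fromBlocks_multiply]
    simp

theorem Φ_psi (A : GL (SympType.K k) F) :
    sp.Φ ((sp.psi A : GL ι F) : Matrix ι ι F) = fromBlocks (A : 𝕂) 0 0 (A : 𝕂) :=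
  sp.Φ.apply_symm_apply _

end EllSplit

end CfsgLib.Geometric.OrthType
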