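import Cfsg.Agent.Lib.Geometric.OrthType.EllSplitDef
import Cfsg.Agent.Lib.Geometric.OrthType.Action
import Cfsg.Agent.Lib.Geometric.Orth.SympTensor

/-!
The splitting along an anisotropic plane of labels as a tensor product of a symplectic plane and the
space of the minus type system: the labels of the plane act on the first factor, the labels orthogonal
to it on the second.
-/

set_option autoImplicit false
set_option linter.unusedSectionVars false

namespace CfsgLib.Geometric.OrthType

open Matrix QuadraticMap Cfsg.Geo CfsgLib.Geometric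

variable {k : ℕ} {ι : Type} [Fintype ι] [DecidableEq ι] {F : Type*} [Field F]

namespace Sys

variable (S : Sys k ι F)

/-- The quadratic form with polar form the form of the system. -/
noncomputable def quadForm : QuadraticForm F (ι → F) :=
  LinearMap.BilinMap.toQuadraticMap (LinearMap.mk₂ F (fun x y => 2⁻¹ * S.f x y)
    (fun x y z => by rw [S.bil.add_left, mul_add])
    (fun a x y => by rw [S.bil.smul_left, smul_eq_mul]; ring)
    (fun x y z => by rw [S.bil.add_right, mul_add])
    (fun a x y => by rw [S.bil.smul_right, smul_eq_mul]; ring))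

theorem quadForm_apply (x : ι → F) : S.quadForm x = 2⁻¹ * S.f x x := by
  simp [quadForm]

theorem polar_quadForm (h2 : (2 : F) ≠ 0) (x y : ι → F) : polar S.quadForm x y = S.f x y := by
  rw [polar, S.quadForm_apply, S.quadForm_apply, S.quadForm_apply, S.bil.add_left, S.bil.add_right,
    S.bil.add_right, S.symm y x]
  field_simp
  ring

theorem nondeg_quadForm (h2 : (2 : F) ≠ 0) : CfsgLib.ClassicalForms.Nondeg S.quadForm := by
  intro x hx
  by_contra h
  obtain ⟨y, hy⟩ := (S.nd x h).2
  exact hy (by rw [← S.polar_quadForm h2]; exact hx y)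

theorem isometryGroup_quadForm (h2 : (2 : F) ≠ 0) :
    Cfsg.isometryGroup F (⇑S.quadForm) = isom S.f := by
  ext g
  rw [Orth.mem_isometryGroup_iff, mem_isom_iff]
  constructor
  · intro h u v
    rw [← S.polar_quadForm h2, ← S.polar_quadForm h2]
    simp only [polar, ← ap_add, h]
  · intro h x
    rw [S.quadForm_apply, S.quadForm_apply, h]

theorem omegaGL_quadForm (h2 : (2 : F) ≠ 0) :
    Cfsg.Geo.omegaGL (⇑S.quadForm) = ⁅isom S.f, isom S.f⁆ := by
  rw [Orth.omegaGL_eq, S.isometryGroup_quadForm h2]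

end Sys

namespace EllSplit

open Tensor

variable {S : Sys (k + 1) ι F} {b c : L (k + 1)} (sp : EllSplit S b c)

local notation "𝕂" => SympType.K k

/-- Two copies of the index set as a product. -/
def sumProd : 𝕂 ⊕ 𝕂 ≃ Fin 2 × 𝕂 where
  toFun := Sum.elim (Prod.mk 0) (Prod.mk 1)
  invFun a := if a.1 = 0 then Sum.inl a.2 else Sum.inr a.2
  left_inv a := by rcases a with a | a <;> simp
  right_inv := by
    rintro ⟨i, a⟩
    fin_cases i <;> simp

include sp in
theorem card_eq : Fintype.card ι = Fintype.card (Fin 2 × 𝕂) := by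
  rw [S.card, Fintype.card_prod, Fintype.card_fin, Fintype.card_fin, pow_succ']

/-- The two factors. -/
noncomputable def eT : ι ≃ Fin 2 × 𝕂 := Fintype.equivOfCardEq sp.card_eq

/-- The change of coordinates. -/
noncomputable def PT : GL ι F :=
  ofEquiv ((LinearEquiv.funCongrLeft F F (sumProd.trans sp.eT.symm)).trans sp.E)

theorem pt_eq (s : Fin 2 → F) (u : 𝕂 → F) :
    pt sp.eT sp.PT s u = sp.E (Sum.elim (s 0 • u) (s 1 • u)) := by
  rw [pt, coords_apply, PT, ap_ofEquiv, LinearEquiv.trans_apply]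
  congr 1
  funext i
  rcases i with i | i <;> simp [sumProd, LinearMap.funLeft]

/-- The form of the first factor. -/
def detForm (s t : Fin 2 → F) : F := s 0 * t 1 - s 1 * t 0

theorem detForm_symp : Cfsg.Geo.IsSymplecticForm (detForm (F := F)) where
  bilinear :=
    { add_left := fun x y v => by simp only [detForm, Pi.add_apply]; ring
      smul_left := fun a x v => by simp only [detForm, Pi.smul_apply, smul_eq_mul]; ring
      add_right := fun v x y => by simp only [detForm, Pi.add_apply]; ring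
      smul_right := fun a v x => by simp only [detForm, Pi.smul_apply, smul_eq_mul]; ring }
  skew x y := by simp only [detForm]; ring
  alternating x := by simp only [detForm]; ring
  nondegenerate x hx := by
    have h : x 0 ≠ 0 ∨ x 1 ≠ 0 := by
      by_contra h
      push Not at h
      exact hx (funext fun i => by fin_cases i; exacts [h.1, h.2])
    rcases h with h | h
    · exact ⟨⟨![0, 1], by simpa [detForm] using h⟩, ⟨![0, 1], by simpa [detForm] using h⟩⟩
    · exact ⟨⟨![1, 0], by simpa [detForm] using h⟩, ⟨![1, 0], by simpa [detForm] using h⟩⟩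

theorem stensor (h2 : (2 : F) ≠ 0) :
    Orth.STensor S.quadForm sp.eT sp.PT detForm sp.T.f 1 := by
  have key : ∀ s t : Fin 2 → F, ∀ u v : 𝕂 → F,
      S.f (pt sp.eT sp.PT s u) (pt sp.eT sp.PT t v) = detForm s t * sp.T.f u v := by
    intro s t u v
    rw [sp.pt_eq, sp.pt_eq, sp.f_E, Sum.elim_comp_inl, Sum.elim_comp_inl, Sum.elim_comp_inr,
      Sum.elim_comp_inr, sp.T.hf.bilinear.smul_left, sp.T.hf.bilinear.smul_left,
      sp.T.hf.bilinear.smul_right, sp.T.hf.bilinear.smul_right, sp.T.hf.skew u v, detForm]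
    ring
  refine ⟨detForm_symp, sp.T.hf, one_ne_zero, fun x x' y y' => ?_, fun x y => ?_⟩
  · rw [S.polar_quadForm h2, key, one_mul]
  · rw [S.quadForm_apply, key, detForm_symp.alternating, zero_mul, mul_zero]

/-- `X` acts only on the first factor. -/
def LeftOnly (X : GL ι F) : Prop :=
  ∃ a : (Fin 2 → F) → (Fin 2 → F), ∀ s u, ap X (pt sp.eT sp.PT s u) = pt sp.eT sp.PT (a s) u

/-- `X` acts only on the second factor. -/
def RightOnly (X : GL ι F) : Prop :=
  ∃ a : (𝕂 → F) → (𝕂 → F), ∀ s u, ap X (pt sp.eT sp.PT s u) = pt sp.eT sp.PT s (a u)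

theorem commute_of_left_right {X Y : GL ι F} (hX : sp.LeftOnly X) (hY : sp.RightOnly Y) :
    (X : Matrix ι ι F) * (Y : Matrix ι ι F) = (Y : Matrix ι ι F) * (X : Matrix ι ι F) := by
  obtain ⟨a, ha⟩ := hX
  obtain ⟨a', ha'⟩ := hY
  rw [← Units.val_mul, ← Units.val_mul]
  exact congrArg Units.val (gl_ext_pt sp.eT sp.PT fun s u => by rw [ap_mul, ap_mul, ha', ha, ha, ha'])

theorem leftOnly_kron (a : GL (Fin 2) F) : sp.LeftOnly (kron sp.eT sp.PT a 1) :=
  ⟨ap a, fun s u => by rw [ap_kron, ap_one]⟩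

theorem rightOnly_kron (B : GL 𝕂 F) : sp.RightOnly (kron sp.eT sp.PT 1 B) :=
  ⟨ap B, fun s u => by rw [ap_kron, ap_one]⟩

theorem ap_gl_φ (v : L k) (s : Fin 2 → F) (u : 𝕂 → F) :
    ap (S.gl (sp.φ v)) (pt sp.eT sp.PT s u) = pt sp.eT sp.PT s (ap (sp.T.gl v) u) := by
  show S.P (sp.φ v) *ᵥ pt sp.eT sp.PT s u = pt sp.eT sp.PT s (sp.T.P v *ᵥ u)
  rw [sp.pt_eq, sp.pt_eq, sp.Φ_spec, sp.P_φ, fromBlocks_mulVec, Sum.elim_comp_inl, Sum.elim_comp_inr,
    zero_mulVec, zero_mulVec, add_zero, zero_add, mulVec_smul, mulVec_smul]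

theorem leftOnly_b : sp.LeftOnly (S.gl b) := by
  refine ⟨fun s => ![-sp.x * s 0 - sp.y * s 1, -sp.y * s 0 + sp.x * s 1], fun s u => ?_⟩
  show S.P b *ᵥ pt sp.eT sp.PT s u = _
  rw [sp.pt_eq, sp.pt_eq, sp.Φ_spec, sp.P_b, fromBlocks_mulVec, Sum.elim_comp_inl, Sum.elim_comp_inr]
  simp only [smul_mulVec, one_mulVec, Matrix.cons_val_zero, Matrix.cons_val_one]
  congr 2 <;> module

theorem leftOnly_c : sp.LeftOnly (S.gl c) := by
  refine ⟨fun s => ![-sp.y * s 0 + sp.x * s 1, sp.x * s 0 + sp.y * s 1], fun s u => ?_⟩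
  show S.P c *ᵥ pt sp.eT sp.PT s u = _
  rw [sp.pt_eq, sp.pt_eq, sp.Φ_spec, sp.P_c, fromBlocks_mulVec, Sum.elim_comp_inl, Sum.elim_comp_inr]
  simp only [smul_mulVec, one_mulVec, Matrix.cons_val_zero, Matrix.cons_val_one]
  congr 2 <;> module

include sp in
theorem mem_range_of_perp {w : L (k + 1)} (hb : S.B b w = 0) (hc : S.B c w = 0) : ∃ v, w = sp.φ v := by
  obtain ⟨v, d, e, rfl⟩ := sp.cases w
  refine ⟨v, ?_⟩
  rw [map_add, map_add, map_smul, map_smul, (sp.perp v).1, S.B_self, sp.B_bc, smul_zero, add_zero,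
    zero_add, smul_eq_mul, mul_one] at hb
  rw [map_add, map_add, map_smul, map_smul, (sp.perp v).2, S.B_self, S.sk c b, sp.B_bc, smul_zero,
    add_zero, zero_add, smul_eq_mul, mul_one] at hc
  rw [hb, hc, zero_smul, zero_smul, add_zero, add_zero]

theorem rightOnly_perp {w : L (k + 1)} (hb : S.B b w = 0) (hc : S.B c w = 0) : sp.RightOnly (S.gl w) := by
  obtain ⟨v, rfl⟩ := sp.mem_range_of_perp hb hc
  exact ⟨ap (sp.T.gl v), sp.ap_gl_φ v⟩

end EllSplit

end CfsgLib.Geometric.OrthType
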