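import Cfsg.Agent.Lib.Geometric.OrthType.Transitive
import Cfsg.Agent.Lib.Geometric.QuadPauli.Global

/-!
An overgroup of the normaliser of a system in which the centralisers of the elements with singular
label normalise the system is the normaliser.
-/

set_option autoImplicit false
set_option linter.unusedSectionVars false

namespace CfsgLib.Geometric.OrthType

open Cfsg.Geo CfsgLib.Geometric
open CfsgLib.Geometric.PauliMax (sgn sgn_inj sgn_zero)

variable {k : ℕ} {ι : Type} [Fintype ι] [DecidableEq ι] {F : Type*} [Field F]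

local notation "𝕄" => Matrix ι ι F

namespace Sys

variable (S : Sys k ι F) (M : Subgroup (GL ι F))

/-- The scalars of `M`. -/
abbrev scal : Subgroup M := (scalars ι F).subgroupOf M

instance scal_normal : (scal M).Normal :=
  ⟨fun g hg x => (inferInstance : (scalars ι F).Normal).conj_mem _ hg (x : GL ι F)⟩

/-- The quotient of `M` by its scalars. -/
abbrev Q := M ⧸ scal M

/-- A representative. -/
noncomputable def qrep (q : Q M) : GL ι F := ((Quotient.out q : M) : GL ι F)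

/-- The image of the normaliser. -/
abbrev NQ : Subgroup (Q M) := (S.N.subgroupOf M).map (QuotientGroup.mk' (scal M))

theorem mk_eq_mk {g h : M} {c : F} (hgh : ((g : GL ι F) : 𝕄) = c • ((h : GL ι F) : 𝕄)) [Nonempty ι] :
    (QuotientGroup.mk g : Q M) = QuotientGroup.mk h := by
  rw [QuotientGroup.eq]
  have hc : c ≠ 0 := fun h0 => Units.ne_zero (g : GL ι F) (by rw [hgh, h0, zero_smul])
  refine (mem_scalars_iff _).2 ⟨Units.mk0 c⁻¹ (inv_ne_zero hc), ?_⟩
  have e : ((h : GL ι F) : 𝕄) = c⁻¹ • ((g : GL ι F) : 𝕄) := by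
    rw [hgh, smul_smul, inv_mul_cancel₀ hc, one_smul]
  show (((g : GL ι F)⁻¹ * (h : GL ι F) : GL ι F) : 𝕄) = _
  rw [Units.val_mul, e, mul_smul_comm, Units.inv_mul]
  rfl

theorem exists_smul_of_mk_eq {g h : M} (e : (QuotientGroup.mk g : Q M) = QuotientGroup.mk h) :
    ∃ c : F, ((g : GL ι F) : 𝕄) = c • ((h : GL ι F) : 𝕄) := by
  have h1 : h⁻¹ * g ∈ scal M := QuotientGroup.eq.1 e.symm
  obtain ⟨c, hc⟩ := (mem_scalars_iff ((h : GL ι F)⁻¹ * (g : GL ι F))).1 h1
  refine ⟨c, ?_⟩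
  have hc' : (((h : GL ι F)⁻¹ * (g : GL ι F) : GL ι F) : 𝕄) = (c : F) • 1 := hc
  calc ((g : GL ι F) : 𝕄) = ((h : GL ι F) : 𝕄) * (((h : GL ι F)⁻¹ * (g : GL ι F) : GL ι F) : 𝕄) := by
        rw [← Units.val_mul, mul_inv_cancel_left]
    _ = _ := by rw [hc', mul_smul_comm, mul_one]

theorem qrep_smul (g : M) : ∃ c : F, ((qrep M (QuotientGroup.mk g) : GL ι F) : 𝕄) = c • ((g : GL ι F) : 𝕄) :=
  exists_smul_of_mk_eq M (QuotientGroup.out_eq' _)

variable {M}

theorem mem_N_of_smul (hM : M ≤ isom S.f) {g h : M} (hh : (h : GL ι F) ∈ S.N) {a : F}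
    (e : ((g : GL ι F) : 𝕄) = a • ((h : GL ι F) : 𝕄)) : (g : GL ι F) ∈ S.N :=
  ⟨hM g.2, fun v => ⟨_, _, by
    rw [e, smul_mul_assoc, S.act_spec hh, mul_smul_comm, smul_comm]⟩⟩

theorem mem_NQ (hM : M ≤ isom S.f) {g : M} :
    (QuotientGroup.mk g : Q M) ∈ S.NQ M ↔ (g : GL ι F) ∈ S.N := by
  constructor
  · rintro ⟨h, hh, e⟩
    obtain ⟨c, hc⟩ := exists_smul_of_mk_eq M (g := g) (h := h) e.symm
    exact S.mem_N_of_smul hM hh hc
  · exact fun h => ⟨g, h, rfl⟩

theorem qrep_mem (hM : M ≤ isom S.f) {q : Q M} (hq : q ∈ S.NQ M) : qrep M q ∈ S.N := by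
  rw [← QuotientGroup.out_eq' q] at hq
  exact (S.mem_NQ hM).1 hq

theorem act_mk (hM : M ≤ isom S.f) {g : M} (hg : (g : GL ι F) ∈ S.N) (v : L k) :
    S.sP (qrep M (QuotientGroup.mk g)) v = S.sP (g : GL ι F) v := by
  obtain ⟨c, hc⟩ := qrep_smul M g
  exact (S.act_congr (S.qrep_mem hM ((S.mem_NQ hM).2 hg)) hg hc v).1

variable (hgl : ∀ v, S.gl v ∈ M)

/-- An element of the system in `M`. -/
def px (v : L k) : M := ⟨S.gl v, hgl v⟩

/-- The data of the quotient. -/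
noncomputable def qdata (hk : Nonempty ι) (h2 : (2 : F) ≠ 0) (hM : M ≤ isom S.f)
    (htrans : ∀ a b, a ≠ 0 → b ≠ 0 → S.q a = S.q b → ∃ n ∈ S.N, n ∈ M ∧ S.sP n a = b)
    (hloc : ∀ a, a ≠ 0 → S.q a = 0 → ∀ g ∈ M, ∀ c : F,
      ((g : GL ι F) : 𝕄) * S.P a = c • (S.P a * (g : 𝕄)) → g ∈ S.N) :
    QuadPauli.QData (Q M) (S.NQ M) (L k) where
  x v := QuotientGroup.mk (S.px hgl v)
  q := S.q
  B := S.B
  s q v := S.sP (qrep M q) v
  x_add a b := by
    obtain ⟨c, hc⟩ := S.add a b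
    rw [← QuotientGroup.mk_mul]
    exact mk_eq_mk M hc
  x_inj a b e := by
    obtain ⟨c, hc⟩ := exists_smul_of_mk_eq M e
    exact S.eq_of_smul_P hc
  x_mem a := (S.mem_NQ hM).2 (S.gl_mem_N a)
  conj := by
    intro n hn v
    induction n using QuotientGroup.induction_on with
    | _ g =>
      have hg := (S.mem_NQ hM).1 hn
      rw [S.act_mk hM hg v, ← QuotientGroup.mk_inv, ← QuotientGroup.mk_mul, ← QuotientGroup.mk_mul]
      refine mk_eq_mk M (c := S.cP (g : GL ι F) v) ?_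
      show (((g : GL ι F) * S.gl v * (g : GL ι F)⁻¹ : GL ι F) : 𝕄) = _
      rw [Units.val_mul, Units.val_mul, coe_gl, S.act_spec hg, smul_mul_assoc, mul_assoc, Units.mul_inv,
        mul_one]
      rfl
  polar := S.q_add
  nondeg := S.nondeg
  ker := by
    intro n hn h
    obtain ⟨u, c, -, hc⟩ := S.exists_of_fixed h2 (S.qrep_mem hM hn) h
    refine ⟨u, ?_⟩
    rw [← QuotientGroup.out_eq' n]
    exact mk_eq_mk M hc
  sqr := by
    intro g a b e
    induction g using QuotientGroup.induction_on with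
    | _ g =>
      rw [← QuotientGroup.mk_inv, ← QuotientGroup.mk_mul, ← QuotientGroup.mk_mul] at e
      obtain ⟨c, hc⟩ := exists_smul_of_mk_eq M e
      have hg := hM g.2
      have hc2 : c * c = 1 := S.smul_sq_eq_one
        (g := (g : GL ι F) * S.gl a * (g : GL ι F)⁻¹) (h := S.gl b)
        (mul_mem (mul_mem hg (S.gl_mem_isom a)) (inv_mem hg)) (S.gl_mem_isom b) hc
      have hc' : ((g : GL ι F) : 𝕄) * S.P a * (((g : GL ι F)⁻¹ : GL ι F) : 𝕄) = c • S.P b := hc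
      refine sgn_inj h2 (smul_left_injective F (one_ne_zero (α := 𝕄)) ?_)
      show sgn F (S.q a) • (1 : 𝕄) = sgn F (S.q b) • 1
      calc sgn F (S.q a) • (1 : 𝕄)
          = ((g : GL ι F) : 𝕄) * (S.P a * S.P a) * (((g : GL ι F)⁻¹ : GL ι F) : 𝕄) := by
            rw [S.sq, mul_smul_comm, mul_one, smul_mul_assoc, Units.mul_inv]
        _ = (((g : GL ι F) : 𝕄) * S.P a * (((g : GL ι F)⁻¹ : GL ι F) : 𝕄)) *
              (((g : GL ι F) : 𝕄) * S.P a * (((g : GL ι F)⁻¹ : GL ι F) : 𝕄)) := by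
            simp [mul_assoc]
        _ = sgn F (S.q b) • 1 := by
            rw [hc', smul_mul_assoc, mul_smul_comm, smul_smul, hc2, one_smul, S.sq]
  trans := by
    intro a b ha hb hq
    obtain ⟨n, hn, hnM, hs⟩ := htrans a b ha hb hq
    exact ⟨QuotientGroup.mk (⟨n, hnM⟩ : M), (S.mem_NQ hM).2 hn, by rw [S.act_mk hM hn]; exact hs⟩
  loc := by
    intro a ha hq g hg
    induction g using QuotientGroup.induction_on with
    | _ g =>
      obtain ⟨c, hc⟩ := exists_smul_of_mk_eq M (g := g * S.px hgl a) (h := S.px hgl a * g) hg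
      exact (S.mem_NQ hM).2 (hloc a ha hq g g.2 c hc)

include hgl in
/-- If the centralisers of singular elements normalise the system, so does `M`. -/
theorem le_N_of_local [Finite F] (hk : 3 ≤ k) (h2 : (2 : F) ≠ 0) (hM : M ≤ isom S.f)
    (htrans : ∀ a b, a ≠ 0 → b ≠ 0 → S.q a = S.q b → ∃ n ∈ S.N, n ∈ M ∧ S.sP n a = b)
    (hloc : ∀ a, a ≠ 0 → S.q a = 0 → ∀ g ∈ M, ∀ c : F,
      ((g : GL ι F) : 𝕄) * S.P a = c • (S.P a * (g : 𝕄)) → g ∈ S.N) : M ≤ S.N := by
  intro g hg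
  have htop := (S.qdata hgl S.nonempty h2 hM htrans hloc).eq_top (by rw [Module.finrank_fin_fun]; omega)
  exact (S.mem_NQ hM (g := ⟨g, hg⟩)).1 (htop ▸ Subgroup.mem_top _)

/-- An overgroup of the commutator subgroup of the normaliser in which the centralisers of singular
elements normalise the system normalises it. -/
theorem le_N_of_D_le {M : Subgroup (GL ι F)} [Finite F] (hk : 3 ≤ k) (h2 : (2 : F) ≠ 0) (hD : S.D ≤ M)
    (hM : M ≤ isom S.f)
    (hloc : ∀ a, a ≠ 0 → S.q a = 0 → ∀ g ∈ M, ∀ c : F,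
      ((g : GL ι F) : 𝕄) * S.P a = c • (S.P a * (g : 𝕄)) → g ∈ S.N) : M ≤ S.N :=
  S.le_N_of_local (fun v => hD (S.gl_mem_D hk h2 v)) hk h2 hM (fun _ _ ha hb h => by
    obtain ⟨n, hn, e⟩ := S.transitive hk h2 ha hb h
    exact ⟨n, S.D_le_N hn, hD hn, e⟩) hloc

end Sys

end CfsgLib.Geometric.OrthType
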