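import Mathlib

/-!
A finite group with an abelian self-normalising `2`-subgroup containing the centralisers of two of its
involutions and of their product is that subgroup.
-/

set_option autoImplicit false

namespace CfsgLib.Geometric.OrthType

variable {G : Type*} [Group G] [Finite G]

/-- A `2`-subgroup `X`, central in its normaliser, containing the centralisers of three involutions
`a`, `b`, `a * b`: the group is `X`. -/
theorem eq_top_of_centralisers {X : Subgroup G} (hX : IsPGroup 2 X)
    (hab : ∀ x ∈ X, ∀ y ∈ X, x * y = y * x)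
    (hnorm : ∀ g : G, (∀ x ∈ X, g * x * g⁻¹ ∈ X) → g ∈ X) {a b : G} (ha : a ∈ X) (hb : b ∈ X)
    (ha2 : a * a = 1) (hb2 : b * b = 1)
    (hca : ∀ g, g * a = a * g → g ∈ X) (hcb : ∀ g, g * b = b * g → g ∈ X)
    (hcab : ∀ g, g * (a * b) = a * b * g → g ∈ X) : X = ⊤ := by
  have : Fact (Nat.Prime 2) := ⟨Nat.prime_two⟩
  obtain ⟨Q, hQ⟩ := hX.exists_le_sylow
  have hQX : (Q : Subgroup G) = X := by
    refine le_antisymm ?_ hQ
    have : Group.IsNilpotent (Q : Subgroup G) := Q.2.isNilpotent
    by_contra hlt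
    have hne : X.subgroupOf Q ≠ ⊤ := fun h => hlt (Subgroup.subgroupOf_eq_top.1 h)
    obtain ⟨g, hg, hgX⟩ := SetLike.exists_of_lt
      (Group.normalizerCondition_of_isNilpotent (G := (Q : Subgroup G)) _ hne.lt_top)
    refine hgX (Subgroup.mem_subgroupOf.2 (hnorm g fun x hx => ?_))
    exact Subgroup.mem_subgroupOf.1 ((Subgroup.mem_normalizer_iff.1 hg ⟨x, hQ hx⟩).1
      (Subgroup.mem_subgroupOf.2 hx))
  have hP : Subgroup.normalizer (Q : Subgroup G) ≤ Subgroup.centralizer (Q : Set G) := by
    intro g hg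
    rw [Subgroup.mem_centralizer_iff]
    intro x hx
    have hgX : g ∈ X := hnorm g fun y hy => by
      rw [← hQX] at hy ⊢
      exact (Subgroup.mem_normalizer_iff.1 hg y).1 hy
    exact hab x (hQX ▸ hx) g hgX
  set K := (MonoidHom.transferSylow Q hP).ker with hKdef
  have hKn : K.Normal := MonoidHom.normal_ker _
  have hcompl : Subgroup.IsComplement' K (Q : Subgroup G) :=
    MonoidHom.ker_transferSylow_isComplement' Q hP
  have hodd : ¬ 2 ∣ Nat.card K := MonoidHom.not_dvd_card_ker_transferSylow Q hP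
  have inv : ∀ v, v * v = 1 → (∀ g, g * v = v * g → g ∈ X) → ∀ x ∈ K, v * x * v⁻¹ = x⁻¹ := by
    intro v hv2 hc x hx
    let φ : K →* K := ((MulAut.conjNormal v : MulAut K)).toMonoidHom
    have hφ : ∀ y : K, (φ y : G) = v * y * v⁻¹ := fun y => MulAut.conjNormal_apply v y
    have hfpf : MonoidHom.FixedPointFree φ := by
      intro y hy
      have h1 : v * (y : G) * v⁻¹ = y := by rw [← hφ, hy]
      have h2 : (y : G) ∈ X := hc _ (mul_inv_eq_iff_eq_mul.1 h1).symm
      have h3 : (y : G) ∈ (⊥ : Subgroup G) :=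
        hcompl.disjoint.le_bot ⟨y.2, hQX.symm ▸ h2⟩
      exact Subtype.ext (Subgroup.mem_bot.1 h3)
    have hinv : Function.Involutive φ := fun y => Subtype.ext (by
      rw [hφ, hφ]
      have hv' : v⁻¹ = v := inv_eq_of_mul_eq_one_right hv2
      rw [hv']
      calc v * (v * (y : G) * v) * v = v * v * (y : G) * (v * v) := by group
        _ = _ := by rw [hv2, one_mul, mul_one])
    have := congrFun (MonoidHom.FixedPointFree.coe_eq_inv_of_involutive hfpf hinv) ⟨x, hx⟩
    rw [← hφ ⟨x, hx⟩, this]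
    rfl
  have hab2 : a * b * (a * b) = 1 := by
    rw [mul_assoc, ← mul_assoc b, ← hab a ha b hb, mul_assoc a b, hb2, mul_one, ha2]
  have hK : ∀ x ∈ K, x = 1 := by
    intro x hx
    have h1 := inv a ha2 hca x hx
    have h2 := inv b hb2 hcb x hx
    have h3 := inv (a * b) hab2 hcab x hx
    have h4 : a * b * x * (a * b)⁻¹ = x := by
      calc a * b * x * (a * b)⁻¹ = a * (b * x * b⁻¹) * a⁻¹ := by group
        _ = (a * x * a⁻¹)⁻¹ := by rw [h2]; group
        _ = x := by rw [h1, inv_inv]
    have h5 : x * x = 1 := by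
      have := h4.symm.trans h3
      rw [eq_inv_iff_mul_eq_one] at this
      exact this
    by_contra hne
    apply hodd
    have h6 : orderOf (⟨x, hx⟩ : K) = 2 :=
      orderOf_eq_prime (by ext; simpa [pow_two] using h5) (fun h => hne (congrArg Subtype.val h))
    rw [← h6]
    exact orderOf_dvd_natCard _
  have hKbot : K = ⊥ := (Subgroup.eq_bot_iff_forall _).2 hK
  rw [hKbot] at hcompl
  rw [← hQX]
  exact Subgroup.isComplement'_bot_left.1 hcompl

end CfsgLib.Geometric.OrthType
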