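import Cfsg.Agent.Lib.Geometric.OrthType.Transitive

/-!
The local condition on an overgroup at the pairs of anticommuting non-singular labels of a system of
plus type.
-/

set_option autoImplicit false

namespace CfsgLib.Geometric.OrthType

open CfsgLib.Geometric

variable {k : ℕ} {ι : Type} [Fintype ι] [DecidableEq ι] {F : Type*} [Field F]

namespace Sys

variable (S : Sys k ι F) (M : Subgroup (GL ι F))

/-- The elements of `M` commuting with two anticommuting elements with non-singular labels normalise
the system. -/
def PlaneLocal : Prop :=
  ∀ b c, S.q b = 1 → S.q c = 1 → S.B b c = 1 → ∀ g ∈ M,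
    (g : Matrix ι ι F) * S.P b = S.P b * (g : Matrix ι ι F) →
      (g : Matrix ι ι F) * S.P c = S.P c * (g : Matrix ι ι F) → g ∈ S.N

end Sys

end CfsgLib.Geometric.OrthType
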