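import Cfsg.Agent.Lib.Geometric.SympType.Labels

/-!
A set of isometries of a quadratic space of plus type over `𝔽₂` which is closed under commutators with
the rotations of anisotropic planes and in which only the identity fixes an anisotropic plane pointwise
consists of the identity.
-/

set_option autoImplicit false

namespace CfsgLib.Geometric.OrthType

open Module
open CfsgLib.Geometric.SympType (Quad zmod2_cases vec_add_self vec_add_eq_zero)

variable {k : ℕ} (Q : Quad k)

local notation "V" => Fin (2 * k) → ZMod 2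

/-- A totally singular subspace orthogonal to an anisotropic plane of a space of plus type has dimension
at most `k - 2`. -/
theorem finrank_le_of_perp_plane {U : Submodule (ZMod 2) V} (hU : ∀ x ∈ U, Q.q x = 0)
    (hUk : finrank (ZMod 2) U = k) {W : Submodule (ZMod 2) V} (hW : ∀ x ∈ W, Q.q x = 0) {v w : V}
    (hv : Q.q v = 1) (hw : Q.q w = 1) (hvw : Q.B v w = 1) (hWv : ∀ x ∈ W, Q.B x v = 0)
    (hWw : ∀ x ∈ W, Q.B x w = 0) : finrank (ZMod 2) W + 2 ≤ k := by
  have iso : ∀ Z : Submodule (ZMod 2) V, (∀ x ∈ Z, Q.q x = 0) → Z ≤ Q.perp Z := by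
    intro Z hZ y hy x hx
    show Q.B x y = 0
    have h := Q.q_add x y
    rw [hZ _ (Z.add_mem hx hy), hZ x hx, hZ y hy, zero_add, zero_add] at h
    exact h.symm
  set π := Submodule.span (ZMod 2) ({v, w} : Set V) with hπ
  have hsing : ∀ p ∈ π, Q.q p = 0 → p = 0 := by
    intro p hp h0
    obtain ⟨a, b, rfl⟩ := Submodule.mem_span_pair.1 hp
    rcases zmod2_cases a with rfl | rfl <;> rcases zmod2_cases b with rfl | rfl <;>
      simp [Q.q_add, Q.q_zero, hv, hw, hvw] at h0 ⊢
    all_goals exact absurd h0 (by decide)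
  have hinf : W ⊓ π = ⊥ := (Submodule.eq_bot_iff _).2 fun x hx => hsing x hx.2 (hW x hx.1)
  have hπ2 : finrank (ZMod 2) π = 2 := by
    have hv0 : v ≠ 0 := fun h => by rw [h, Q.q_zero] at hv; exact zero_ne_one hv
    have hne : ∀ a : ZMod 2, a • v ≠ w := by
      intro a
      rcases zmod2_cases a with rfl | rfl
      · rw [zero_smul]; intro h; rw [← h, Q.q_zero] at hw; exact zero_ne_one hw
      · rw [one_smul]; intro h; rw [h, Q.alt] at hvw; exact zero_ne_one hvw
    have hli : LinearIndependent (ZMod 2) ![v, w] := (LinearIndependent.pair_iff' hv0).2 hne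
    have h := finrank_span_eq_card hli
    rwa [show Set.range ![v, w] = ({v, w} : Set V) by simp [Set.pair_comm], Fintype.card_fin] at h
  have hπperp : π ≤ Q.perp W := Submodule.span_le.2 (by
    rintro _ (rfl | rfl) x hx
    · exact hWv x hx
    · exact hWw x hx)
  have hsup : W ⊔ π ≤ Q.perp W := sup_le (iso W hW) hπperp
  have hd := Submodule.finrank_sup_add_finrank_inf_eq W π
  rw [hinf, finrank_bot, hπ2, add_zero] at hd
  have hle := Submodule.finrank_mono hsup
  rw [hd, Q.finrank_perp] at hle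
  by_contra hcon
  have heq : W ⊔ π = Q.perp W :=
    Submodule.eq_of_le_of_finrank_le hsup (by rw [hd, Q.finrank_perp]; omega)
  have hUperp : Q.perp U = U :=
    (Submodule.eq_of_le_of_finrank_le (iso U hU) (by rw [Q.finrank_perp]; omega)).symm
  have hUW : U ⊓ Q.perp W ≤ U ⊓ W := by
    rintro x ⟨hxU, hxW⟩
    refine ⟨hxU, ?_⟩
    rw [SetLike.mem_coe, ← heq] at hxW
    obtain ⟨a, ha, b, hb, rfl⟩ := Submodule.mem_sup.1 hxW
    have h := hU _ hxU
    rw [Q.q_add, hW a ha, zero_add, show Q.B a b = 0 from hπperp hb a ha, add_zero] at h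
    rw [hsing b hb h, add_zero]
    exact ha
  have hperp : Q.perp (U ⊔ W) ≤ U ⊓ Q.perp W := fun x hx =>
    ⟨hUperp ▸ (fun y hy => hx y (Submodule.mem_sup_left hy) : x ∈ Q.perp U),
      fun y hy => hx y (Submodule.mem_sup_right hy)⟩
  have h1 := Submodule.finrank_mono (hperp.trans hUW)
  have h2 := Submodule.finrank_sup_add_finrank_inf_eq U W
  have h3 := Submodule.finrank_le (U ⊔ W)
  rw [Q.finrank_perp] at h1
  rw [finrank_fin_fun] at h3
  omega

/-- The hypotheses on a set `P` of maps of the labels. -/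
structure PlaneRigid (P : ((Fin (2 * k) → ZMod 2) → (Fin (2 * k) → ZMod 2)) → Prop) : Prop where
  add : ∀ C, P C → ∀ a b, C (a + b) = C a + C b
  q_eq : ∀ C, P C → ∀ a, Q.q (C a) = Q.q a
  comm : ∀ C, P C → ∀ v w, Q.q v = 1 → Q.q w = 1 → Q.B v w = 1 →
    ∃ C', P C' ∧ ∀ x, C' (Q.pairMap v w (C x)) = C (Q.pairMap v w x)
  fix : ∀ C, P C → ∀ v w, Q.q v = 1 → Q.q w = 1 → Q.B v w = 1 → C v = v → C w = w → ∀ x, C x = x

/-- A map commuting with the rotation of a plane sends the plane into itself. -/
theorem map_plane {C : V → V} (hadd : ∀ a b, C (a + b) = C a + C b) {v w : V} (hvw : Q.B v w = 1)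
    (h : ∀ x, Q.pairMap v w (C x) = C (Q.pairMap v w x)) : ∃ a b : ZMod 2, C v = a • w + b • v := by
  have hv : Q.pairMap v w v = w := by
    simp only [Quad.pairMap, hvw, one_smul, LinearMap.map_add₂, Q.alt, Q.sk w v, zero_add]
    rw [add_comm v w, add_assoc, vec_add_self, add_zero]
  have hw : Q.pairMap v w w = w + v := by
    simp only [Quad.pairMap, Q.alt, zero_smul, add_zero, Q.sk w v, hvw, one_smul]
  have h1 := h w
  rw [hw, hadd] at h1
  refine ⟨Q.B (C w) w, Q.B (C w + Q.B (C w) w • w) v, ?_⟩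
  calc C v = C w + (C w + C v) := by rw [← add_assoc, vec_add_self, zero_add]
    _ = C w + Q.pairMap v w (C w) := by rw [h1]
    _ = _ := by
      simp only [Quad.pairMap]
      rw [← add_assoc, ← add_assoc, vec_add_self, zero_add]

/-- A partner of a non-singular vector. -/
theorem exists_partner (hk : 3 ≤ k) {e : V} (he : Q.q e = 1) : ∃ f, Q.q f = 1 ∧ Q.B e f = 1 := by
  have he0 : e ≠ 0 := fun h => by rw [h, Q.q_zero] at he; exact zero_ne_one he
  obtain ⟨d, hd⟩ : ∃ d, Q.B e d = 1 := by
    by_contra h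
    push Not at h
    exact he0 (Q.nondeg e fun w => (zmod2_cases _).resolve_right (h w))
  obtain ⟨w, hw, hq⟩ := Q.exists_perp_coset {e} (by rw [Finset.card_singleton]; omega) d 1
  exact ⟨d + w, hq, by rw [map_add, hd, hw e (Finset.mem_singleton_self e), add_zero]⟩

/-- A non-zero singular vector orthogonal to two vectors. -/
theorem exists_singular_perp (hk : 3 ≤ k) (e f : V) :
    ∃ z, z ≠ 0 ∧ Q.q z = 0 ∧ Q.B e z = 0 ∧ Q.B f z = 0 := by
  obtain ⟨z, hz, hz0, hq⟩ := Q.exists_singular
    (W := Q.perp (Submodule.span (ZMod 2) ((({e, f} : Finset V)) : Set V))) (by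
      have := Q.le_finrank_perp_span ({e, f} : Finset V)
      have := Finset.card_le_two (a := e) (b := f)
      omega)
  exact ⟨z, hz0, hq, hz e (Submodule.subset_span (by simp)), hz f (Submodule.subset_span (by simp))⟩

/-- A map preserving the planes fixes the non-singular vectors, so it is the identity. -/
theorem eq_id_of_commutes (hk : 3 ≤ k) {C : V → V} (hadd : ∀ a b, C (a + b) = C a + C b)
    (hq : ∀ a, Q.q (C a) = Q.q a)
    (h : ∀ v w, Q.q v = 1 → Q.q w = 1 → Q.B v w = 1 → ∃ a b : ZMod 2, C v = a • w + b • v) :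
    ∀ x, C x = x := by
  have hns : ∀ e, Q.q e = 1 → C e = e := by
    intro e he
    obtain ⟨f, hf, hef⟩ := exists_partner Q hk he
    obtain ⟨z, hz0, hqz, hez, hfz⟩ := exists_singular_perp Q hk e f
    have hfz1 : Q.q (f + z) = 1 := by rw [Q.q_add, hf, hqz, hfz, add_zero, add_zero]
    obtain ⟨a, b, h1⟩ := h e f he hf hef
    obtain ⟨a', b', h2⟩ := h e (f + z) he hfz1 (by rw [map_add, hef, hez, add_zero])
    rw [h1] at h2
    have hb : b = b' := by
      have := congrArg (fun x => Q.B x f) h2
      simpa [Q.alt, hef, Q.sk z f, hfz] using this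
    subst hb
    rcases zmod2_cases a with rfl | rfl <;> rcases zmod2_cases a' with rfl | rfl
    · rw [h1, zero_smul, zero_add]
      have hq' := hq e
      rw [h1, zero_smul, zero_add] at hq'
      rcases zmod2_cases b with rfl | rfl
      · rw [zero_smul, Q.q_zero, he] at hq'; exact absurd hq' zero_ne_one
      · rw [one_smul]
    · simp only [zero_smul, one_smul, zero_add] at h2
      have := left_eq_add.1 (h2.trans (add_comm _ _))
      rw [this, Q.q_zero] at hfz1
      exact absurd hfz1 zero_ne_one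
    · simp only [zero_smul, one_smul, zero_add] at h2
      have := add_eq_right.1 h2
      rw [this, Q.q_zero] at hf
      exact absurd hf zero_ne_one
    · simp only [one_smul] at h2
      exact absurd (left_eq_add.1 (add_right_cancel h2)) hz0
  intro x
  rcases zmod2_cases (Q.q x) with hx | hx
  · obtain ⟨f, hf, hqf⟩ := Q.exists_perp_coset {x} (by rw [Finset.card_singleton]; omega) 0 1
    rw [zero_add] at hqf
    have hxf : Q.q (x + f) = 1 := by
      rw [Q.q_add, hx, hqf, hf x (Finset.mem_singleton_self x)]; decide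
    have h1 := hns _ hxf
    rw [hadd, hns f hqf] at h1
    exact add_right_cancel h1
  · exact hns x hx

variable {P : ((Fin (2 * k) → ZMod 2) → (Fin (2 * k) → ZMod 2)) → Prop} (hP : PlaneRigid Q P)
include hP

theorem PlaneRigid.B_eq {C : V → V} (hC : P C) (a b : V) : Q.B (C a) (C b) = Q.B a b := by
  have h1 := Q.q_add (C a) (C b)
  rw [← hP.add C hC, hP.q_eq C hC, hP.q_eq C hC, hP.q_eq C hC, Q.q_add] at h1
  exact (add_left_cancel h1).symm

theorem PlaneRigid.surj {C : V → V} (hC : P C) : Function.Surjective C := by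
  refine Finite.injective_iff_surjective.1 fun a b h => ?_
  rw [← vec_add_eq_zero]
  refine Q.nondeg _ fun w => ?_
  rw [← hP.B_eq Q hC, hP.add C hC, h, vec_add_self, _root_.map_zero, LinearMap.zero_apply]

/-- The commutator with a rotation fixes the vectors orthogonal to the plane and its image. -/
theorem PlaneRigid.exists_comm {C : V → V} (hC : P C) {v w : V} (hv : Q.q v = 1) (hw : Q.q w = 1)
    (hvw : Q.B v w = 1) : ∃ C', P C' ∧ (∀ x, C' (Q.pairMap v w (C x)) = C (Q.pairMap v w x)) ∧
      ∀ x, Q.B x v = 0 → Q.B x w = 0 → Q.B x (C v) = 0 → Q.B x (C w) = 0 → C' x = x := by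
  obtain ⟨C', hC', hrel⟩ := hP.comm C hC v w hv hw hvw
  refine ⟨C', hC', hrel, fun x h1 h2 h3 h4 => ?_⟩
  obtain ⟨x₀, rfl⟩ := hP.surj Q hC x
  rw [hP.B_eq Q hC] at h3 h4
  have h := hrel x₀
  simp only [Quad.pairMap, h1, h2, h3, h4, zero_smul, add_zero] at h
  exact h

variable {U : Submodule (ZMod 2) (Fin (2 * k) → ZMod 2)} (hU : ∀ x ∈ U, Q.q x = 0) (hUk : finrank (ZMod 2) U = k)
include hU hUk

/-- A member fixing a non-singular vector is the identity. -/
theorem PlaneRigid.eq_id_of_fixed (hk : 3 ≤ k) {C : V → V} (hC : P C) {e : V} (he : Q.q e = 1)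
    (hCe : C e = e) : ∀ x, C x = x := by
  have key : ∀ e, Q.q e = 1 → C e = e → ∀ f, Q.q f = 1 → Q.B e f = 1 → C f = f ∨ C f = f + e := by
    intro e he hCe f hf hef
    have hfe : Q.B f e = 1 := by rw [Q.sk, hef]
    obtain ⟨C', hC', hrel, hfix⟩ := hP.exists_comm Q hC hf he hfe
    set W := Q.perp (Submodule.span (ZMod 2) ((({f, e, C f} : Finset V)) : Set V)) with hW
    have hWd : 2 * k ≤ finrank (ZMod 2) W + 3 := by
      have := Q.le_finrank_perp_span ({f, e, C f} : Finset V)
      rw [← hW] at this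
      have : ({f, e, C f} : Finset V).card ≤ 3 := Finset.card_le_three
      omega
    have hWf : ∀ x ∈ W, Q.B x f = 0 ∧ Q.B x e = 0 ∧ Q.B x (C f) = 0 := fun x hx =>
      ⟨(Q.sk _ _).trans (hx f (Submodule.subset_span (by simp))),
        (Q.sk _ _).trans (hx e (Submodule.subset_span (by simp))),
        (Q.sk _ _).trans (hx (C f) (Submodule.subset_span (by simp)))⟩
    have hid : ∀ x ∈ W, C' x = x := fun x hx =>
      hfix x (hWf x hx).1 (hWf x hx).2.1 (hWf x hx).2.2 (by rw [hCe]; exact (hWf x hx).2.1)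
    -- an anisotropic plane in `W`
    obtain ⟨x, hx, y, hy, hxy⟩ : ∃ x ∈ W, ∃ y ∈ W, Q.B x y = 1 := by
      by_contra hcon
      push Not at hcon
      set Z := W ⊔ Submodule.span (ZMod 2) {f} with hZ
      have hlt : W < Z := left_lt_sup.2 fun hle => by
        have := (hWf f (hle (Submodule.mem_span_singleton_self f))).2.1
        rw [hfe] at this
        exact one_ne_zero this
      have hiso : Z ≤ Q.perp Z := by
        intro a ha b hb
        obtain ⟨a₁, ha₁, a₂, ha₂, rfl⟩ := Submodule.mem_sup.1 ha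
        obtain ⟨b₁, hb₁, b₂, hb₂, rfl⟩ := Submodule.mem_sup.1 hb
        obtain ⟨c, rfl⟩ := Submodule.mem_span_singleton.1 ha₂
        obtain ⟨d, rfl⟩ := Submodule.mem_span_singleton.1 hb₂
        show Q.B (b₁ + d • f) (a₁ + c • f) = 0
        simp [(zmod2_cases _).resolve_right (hcon b₁ hb₁ a₁ ha₁), Q.alt,
          (Q.sk f a₁).trans (hWf a₁ ha₁).1, (hWf b₁ hb₁).1]
      have h1 := Submodule.finrank_mono hiso
      have h2 := Submodule.finrank_lt_finrank_of_lt hlt
      rw [Q.finrank_perp] at h1
      omega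
    obtain ⟨x, hx, y, hy, hxy, hqx⟩ : ∃ x ∈ W, ∃ y ∈ W, Q.B x y = 1 ∧ Q.q x = 1 := by
      rcases zmod2_cases (Q.q x) with h | h
      · rcases zmod2_cases (Q.q y) with h' | h'
        · exact ⟨x + y, W.add_mem hx hy, y, hy, by rw [LinearMap.map_add₂, hxy, Q.alt, add_zero],
            by rw [Q.q_add, h, h', hxy]; decide⟩
        · exact ⟨y, hy, x, hx, by rw [Q.sk, hxy], h'⟩
      · exact ⟨x, hx, y, hy, hxy, h⟩
    obtain ⟨y, hy, hxy, hqy⟩ : ∃ y ∈ W, Q.B x y = 1 ∧ Q.q y = 1 := by
      rcases zmod2_cases (Q.q y) with h | h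
      swap; · exact ⟨y, hy, hxy, h⟩
      by_contra hcon
      push Not at hcon
      set Z := W ⊓ Q.perp (Submodule.span (ZMod 2) ((({x, y} : Finset V)) : Set V)) with hZ
      have hZs : ∀ z ∈ Z, Q.q z = 0 ∧ Q.B y z = 0 ∧ Q.B x z = 0 := by
        intro z hz
        have e1 : Q.B x z = 0 := hz.2 x (Submodule.subset_span (by simp))
        have e2 : Q.B y z = 0 := hz.2 y (Submodule.subset_span (by simp))
        refine ⟨(zmod2_cases _).resolve_right fun hq => hcon (y + z) (W.add_mem hy hz.1)
          (by rw [map_add, hxy, e1, add_zero]) ?_, e2, e1⟩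
        rw [Q.q_add, h, hq, e2, zero_add, add_zero]
      set Z' := Z ⊔ Submodule.span (ZMod 2) {y} with hZ'
      have hlt : Z < Z' := left_lt_sup.2 fun hle => by
        have := (hZs y (hle (Submodule.mem_span_singleton_self y))).2.2
        rw [hxy] at this
        exact one_ne_zero this
      have hin : ∀ z ∈ Z', z ∈ W ∧ Q.q z = 0 := by
        intro z hz
        obtain ⟨a, ha, b, hb, rfl⟩ := Submodule.mem_sup.1 hz
        obtain ⟨c, rfl⟩ := Submodule.mem_span_singleton.1 hb
        refine ⟨W.add_mem ha.1 (W.smul_mem c hy), ?_⟩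
        rcases zmod2_cases c with rfl | rfl
        · rw [zero_smul, add_zero]; exact (hZs a ha).1
        · rw [one_smul, Q.q_add, (hZs a ha).1, h, Q.sk, (hZs a ha).2.1]; decide
      have hb := finrank_le_of_perp_plane Q hU hUk (W := Z') (fun z hz => (hin z hz).2) hf he hfe
        (fun z hz => (hWf z (hin z hz).1).1) (fun z hz => (hWf z (hin z hz).1).2.1)
      have h1 := Submodule.finrank_lt_finrank_of_lt hlt
      have h2 := Submodule.finrank_sup_add_finrank_inf_eq W
        (Q.perp (Submodule.span (ZMod 2) ((({x, y} : Finset V)) : Set V)))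
      have h3 := Submodule.finrank_le
        (W ⊔ Q.perp (Submodule.span (ZMod 2) ((({x, y} : Finset V)) : Set V)))
      have h4 := Q.le_finrank_perp_span ({x, y} : Finset V)
      have := Finset.card_le_two (a := x) (b := y)
      rw [finrank_fin_fun] at h3
      rw [← hZ] at h2
      omega
    have hC'id := hP.fix C' hC' x y hqx hqy hxy (hid x hx) (hid y hy)
    obtain ⟨a, b, hab⟩ := map_plane Q (hP.add C hC) hfe fun z => by
      rw [← hrel z]
      exact (hC'id _).symm
    have hb : b = 1 := by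
      have := hP.B_eq Q hC e f
      rw [hCe, hab, map_add, map_smul, map_smul, Q.alt, hef] at this
      simpa using this
    subst hb
    rcases zmod2_cases a with rfl | rfl
    · left; rw [hab, zero_smul, one_smul, zero_add]
    · right; rw [hab, one_smul, one_smul, add_comm]
  obtain ⟨f, hf, hef⟩ := exists_partner Q hk he
  obtain ⟨z, hz0, hqz, hez, hfz⟩ := exists_singular_perp Q hk e f
  have hg : Q.q (f + e + z) = 1 := by
    rw [Q.q_add, Q.q_add, hf, he, Q.sk f e, hef, hqz, LinearMap.map_add₂, hfz, hez]; decide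
  have heg : Q.B e (f + e + z) = 1 := by rw [map_add, map_add, hef, Q.alt, hez]; decide
  -- `e + z` is fixed
  have hq' : Q.q (e + z) = 1 := by rw [Q.q_add, he, hqz, hez]; decide
  have hfe' : Q.B (e + z) f = 1 := by rw [LinearMap.map_add₂, hef, Q.sk, hfz, add_zero]
  have hsum : f + (f + e + z) = e + z := by rw [← add_assoc, ← add_assoc, vec_add_self, zero_add]
  have hez' : C (e + z) = e + z := by
    have hcases : C (e + z) = e + z ∨ C (e + z) = e + z + e := by
      rw [← hsum, hP.add C hC f]
      rcases key e he hCe f hf hef with h1 | h1 <;> rcases key e he hCe _ hg heg with h2 | h2 <;> rw [h1, h2]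
      · exact Or.inl rfl
      · exact Or.inr (by abel)
      · exact Or.inr (by abel)
      · left
        rw [show f + e + (f + e + z + e) = f + (f + e + z) + (e + e) by abel, vec_add_self, add_zero]
    refine hcases.resolve_right fun h => ?_
    have h' := hP.q_eq C hC (e + z)
    rw [h, add_right_comm, vec_add_self, zero_add, hqz, hq'] at h'
    exact zero_ne_one h'
  have hCf : C f = f := by
    refine (key e he hCe f hf hef).resolve_right fun h => ?_
    rcases key (e + z) hq' hez' f hf hfe' with h' | h' <;> rw [h] at h'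
    · rw [add_eq_left.1 h', Q.q_zero] at he
      exact zero_ne_one he
    · exact hz0 (left_eq_add.1 (add_left_cancel h'))
  exact hP.fix C hC e f he hf hef hCe hCf

/-- Every member is the identity. -/
theorem PlaneRigid.eq_id (hk : 3 ≤ k) {C : V → V} (hC : P C) : ∀ x, C x = x := by
  refine eq_id_of_commutes Q hk (hP.add C hC) (hP.q_eq C hC) fun v w hv hw hvw => ?_
  obtain ⟨C', hC', hrel, hfix⟩ := hP.exists_comm Q hC hv hw hvw
  set W := Q.perp (Submodule.span (ZMod 2) ((({v, w, C v, C w} : Finset V)) : Set V)) with hW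
  have hWm : ∀ x ∈ W, Q.B x v = 0 ∧ Q.B x w = 0 ∧ Q.B x (C v) = 0 ∧ Q.B x (C w) = 0 := fun x hx =>
    ⟨(Q.sk _ _).trans (hx v (Submodule.subset_span (by simp))),
      (Q.sk _ _).trans (hx w (Submodule.subset_span (by simp))),
      (Q.sk _ _).trans (hx (C v) (Submodule.subset_span (by simp))),
      (Q.sk _ _).trans (hx (C w) (Submodule.subset_span (by simp)))⟩
  obtain ⟨x, hx, hqx⟩ : ∃ x ∈ W, Q.q x = 1 := by
    by_contra hcon
    push Not at hcon
    have hb := finrank_le_of_perp_plane Q hU hUk (W := W)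
      (fun z hz => (zmod2_cases _).resolve_right (hcon z hz)) hv hw hvw
      (fun z hz => (hWm z hz).1) (fun z hz => (hWm z hz).2.1)
    have := Q.le_finrank_perp_span ({v, w, C v, C w} : Finset V)
    have h4 : ({v, w, C v, C w} : Finset V).card ≤ 4 := Finset.card_le_four
    rw [← hW] at this
    omega
  have hid := hP.eq_id_of_fixed Q hU hUk hk hC' hqx
    (hfix x (hWm x hx).1 (hWm x hx).2.1 (hWm x hx).2.2.1 (hWm x hx).2.2.2)
  exact map_plane Q (hP.add C hC) hvw fun z => by rw [← hrel z]; exact (hid _).symm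

end CfsgLib.Geometric.OrthType
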