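import Cfsg.Agent.Lib.Geometric.OrthType.Blocks
import Cfsg.Agent.Lib.Geometric.OrthType.DPairs
import Cfsg.Agent.Lib.Geometric.OrthType.Model
import Cfsg.Agent.Lib.Geometric.OrthType.PlaneDef
import Cfsg.Agent.Lib.Geometric.OrthType.Rigid
import Cfsg.Agent.Lib.Geometric.OrthType.Odd

/-!
In split coordinates along two singular labels, the one-sided elements of an overgroup with the local
property at anisotropic planes are the elements of the smaller system, up to sign.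
-/

set_option autoImplicit false
set_option linter.unusedSectionVars false
set_option linter.style.haveILetI false

namespace CfsgLib.Geometric.OrthType

open Matrix CfsgLib.Geometric
open CfsgLib.Geometric.SympType (Quad zmod2_cases)
open CfsgLib.Geometric.PauliMax (sgn sgn_zero sgn_one sgn_cases sgn_sq sgn_inj sgn_add sgn_ne_zero)

variable {k : ℕ} {ι : Type} [Fintype ι] [DecidableEq ι] {F : Type*} [Field F]

local notation "𝕂" => Matrix (K k) (K k) F

namespace Split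

variable {S : Sys (k + 1) ι F} {a u : L (k + 1)} (sp : Split S a u)

theorem B_φ (v w : L k) : S.B (sp.φ v) (sp.φ w) = sp.T.B v w := by
  have h := S.q_add (sp.φ v) (sp.φ w)
  rw [← map_add, sp.q_φ, sp.q_φ, sp.q_φ, sp.T.q_add] at h
  exact (add_left_cancel h).symm

/-- The elements of the system in split coordinates. -/
theorem Φ_P_cases (y : L k) (d e : ZMod 2) : ∃ l : F, l ≠ 0 ∧ sp.Φ (S.P (sp.φ y + d • a + e • u)) =
    l • if e = 0 then fromBlocks (sp.T.P y) 0 0 (sgn F d • sp.T.P y)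
      else fromBlocks 0 (sp.T.P y) (sgn F d • sp.T.P y) 0 := by
  have hd : ∃ l : F, l ≠ 0 ∧ sp.Φ (S.P (sp.φ y + d • a)) =
      l • fromBlocks (sp.T.P y) 0 0 (sgn F d • sp.T.P y) := by
    rcases zmod2_cases d with rfl | rfl
    · exact ⟨1, one_ne_zero, by rw [zero_smul, add_zero, one_smul, sgn_zero, one_smul, sp.P_φ]⟩
    · obtain ⟨l, hl, hl'⟩ := S.P_add_coeff (sp.φ y) a
      refine ⟨l, hl, ?_⟩
      rw [one_smul, hl', sp.Φ_smul, map_mul, sp.P_φ, sp.P_a, sgn_one]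
      simp [fromBlocks_multiply]
  obtain ⟨l, hl, hl'⟩ := hd
  rcases zmod2_cases e with rfl | rfl
  · exact ⟨l, hl, by rw [if_pos rfl, zero_smul, add_zero, hl']⟩
  · obtain ⟨m, hm, hm'⟩ := S.P_add_coeff (sp.φ y + d • a) u
    refine ⟨m * l, mul_ne_zero hm hl, ?_⟩
    rw [one_smul, hm', sp.Φ_smul, map_mul, hl', sp.P_u, if_neg one_ne_zero, smul_mul_assoc, smul_smul]
    simp [fromBlocks_multiply]

theorem coe_bd_mul {A B : GL (K k) F} {v : L (k + 1)} {w : L (k + 1)} {c : F}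
    (h : ((sp.bd (A, B) : GL ι F) : Matrix ι ι F) * S.P v =
      c • (S.P w * ((sp.bd (A, B) : GL ι F) : Matrix ι ι F))) :
    fromBlocks (A : 𝕂) 0 0 (B : 𝕂) * sp.Φ (S.P v) =
      c • (sp.Φ (S.P w) * fromBlocks (A : 𝕂) 0 0 (B : 𝕂)) := by
  have e := congrArg sp.Φ h
  rwa [map_mul, sp.Φ_smul, map_mul, sp.Φ_bd] at e

/-- The components of a block diagonal element of the normaliser normalise the smaller system. -/
theorem of_bd_mem_N {A B : GL (K k) F} (h : sp.bd (A, B) ∈ S.N) : A ∈ sp.T.N ∧ B ∈ sp.T.N := by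
  obtain ⟨hA, hB⟩ := sp.bd_mem_isom.1 h.1
  have key : ∀ z, ∃ (y : L k) (c d : F), (A : 𝕂) * sp.T.P z = c • (sp.T.P y * (A : 𝕂)) ∧
      (B : 𝕂) * sp.T.P z = d • (sp.T.P y * (B : 𝕂)) := by
    intro z
    obtain ⟨w, c, hw⟩ := h.2 (sp.φ z)
    have e := sp.coe_bd_mul hw
    obtain ⟨y, d, e', rfl⟩ := sp.cases w
    obtain ⟨l, -, hl⟩ := sp.Φ_P_cases y d e'
    rw [hl, sp.P_φ] at e
    rcases zmod2_cases e' with rfl | rfl
    · rw [if_pos rfl] at e
      simp only [fromBlocks_multiply, fromBlocks_smul, Matrix.mul_zero, Matrix.zero_mul, add_zero, zero_add,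
        smul_zero, fromBlocks_inj, Matrix.smul_mul, smul_smul] at e
      exact ⟨y, c * l, c * (l * sgn F d), e.1, e.2.2.2⟩
    · rw [if_neg one_ne_zero] at e
      simp only [fromBlocks_multiply, fromBlocks_smul, Matrix.mul_zero, Matrix.zero_mul, add_zero, zero_add,
        smul_zero, fromBlocks_inj, Matrix.smul_mul, smul_smul] at e
      have h0 : ((A * sp.T.gl z : GL (K k) F) : 𝕂) = 0 := by rw [Units.val_mul, Sys.coe_gl]; exact e.1
      haveI := sp.T.nonempty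
      exact absurd h0 (Units.ne_zero _)
  exact ⟨⟨hA, fun z => by obtain ⟨y, c, -, h1, -⟩ := key z; exact ⟨y, c, h1⟩⟩,
    ⟨hB, fun z => by obtain ⟨y, -, d, -, h1⟩ := key z; exact ⟨y, d, h1⟩⟩⟩

/-- A one-sided element of the normaliser is an element of the system, up to a scalar. -/
theorem exists_of_bd_one_mem_N {C : GL (K k) F} (h : sp.bd (1, C) ∈ S.N) :
    ∃ (y : L k) (c : F), (C : 𝕂) = c • sp.T.P y := by
  obtain ⟨w, c, hw⟩ := h.2 u
  have e := sp.coe_bd_mul hw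
  obtain ⟨y, d, e', rfl⟩ := sp.cases w
  obtain ⟨l, -, hl⟩ := sp.Φ_P_cases y d e'
  rw [hl, sp.P_u] at e
  rcases zmod2_cases e' with rfl | rfl
  · rw [if_pos rfl] at e
    simp only [fromBlocks_multiply, fromBlocks_smul, Matrix.mul_zero, Matrix.zero_mul, add_zero, zero_add,
      smul_zero, fromBlocks_inj, Matrix.smul_mul, smul_smul, Units.val_one, Matrix.mul_one] at e
    haveI := sp.T.nonempty
    exact absurd e.2.1 one_ne_zero
  · rw [if_neg one_ne_zero] at e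
    simp only [fromBlocks_multiply, fromBlocks_smul, Matrix.mul_zero, Matrix.zero_mul, add_zero, zero_add,
      smul_zero, fromBlocks_inj, Matrix.smul_mul, smul_smul, Units.val_one, Matrix.mul_one] at e
    exact ⟨y, c * (l * sgn F d), e.2.2.1⟩

variable {M : Subgroup (GL ι F)}

/-- The elements of the smaller system, with either sign, are one-sided elements of `M`. -/
theorem bd_one_smul_gl_mem_N (_h2 : (2 : F) ≠ 0) {x : GL (K k) F} {c : F} (hc : c * c = 1) {y : L k}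
    (hx : (x : 𝕂) = c • sp.T.P y) : sp.bd (1, x) ∈ S.N := by
  rcases mul_self_eq_one_iff.1 hc with rfl | rfl
  · rw [show x = sp.T.gl y from Units.ext (by rw [hx, one_smul, Sys.coe_gl])]
    exact sp.bd_one_gl_mem_N y
  · have e : sp.bd (1, x) = S.gl a * sp.bd (1, sp.T.gl y) := by
      refine Units.ext (sp.Φ_inj ?_)
      rw [sp.Φ_bd, Units.val_mul, map_mul, sp.Φ_bd, Sys.coe_gl, sp.P_a, fromBlocks_multiply, hx,
        Sys.coe_gl]
      simp
    rw [e]
    exact mul_mem (S.gl_mem_N a) (sp.bd_one_gl_mem_N y)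

theorem bd_one_smul_gl_mem (hk : 3 ≤ k) (h2 : (2 : F) ≠ 0) (hNO : S.N ⊓ ⁅isom S.f, isom S.f⁆ ≤ M)
    {x : GL (K k) F} {c : F} (hc : c * c = 1) {y : L k} (hx : (x : 𝕂) = c • sp.T.P y) :
    sp.bd (1, x) ∈ M := by
  refine hNO ⟨sp.bd_one_smul_gl_mem_N h2 hc hx, ?_⟩
  have key : sp.T.D ≤ Subgroup.comap (sp.bd.comp (MonoidHom.inr _ _)) ⁅isom S.f, isom S.f⁆ := by
    refine Subgroup.commutator_le.2 fun g hg h hh => ?_
    rw [Subgroup.mem_comap, map_commutatorElement]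
    exact Subgroup.commutator_mem_commutator (sp.bd_mem_isom.2 ⟨one_mem _, hg.1⟩)
      (sp.bd_mem_isom.2 ⟨one_mem _, hh.1⟩)
  exact key (sp.T.smul_gl_mem_D hk h2 hc hx)

theorem D_le_of_le (hNO : S.N ⊓ ⁅isom S.f, isom S.f⁆ ≤ M) : S.D ≤ M :=
  fun _ h => hNO ⟨S.D_le_N h, Subgroup.commutator_mono S.N_le S.N_le h⟩

variable [Finite F] (hk : 3 ≤ k) (h2 : (2 : F) ≠ 0) (hNO : S.N ⊓ ⁅isom S.f, isom S.f⁆ ≤ M)
  (hM : M ≤ isom S.f) (hP : S.PlaneLocal M)
include hk h2 hNO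

theorem gl_mem_kerGroup (y : L k) : sp.T.gl y ∈ sp.kerGroup M :=
  sp.bd_one_smul_gl_mem hk h2 hNO (one_mul 1) (by rw [one_smul, Sys.coe_gl])

include sp in
theorem gl_u_mem : S.gl u ∈ M := D_le_of_le hNO (S.gl_mem_D (by omega) h2 u)

include hM in
theorem kerGroup_le : sp.kerGroup M ≤ isom sp.T.f := fun _ h => (sp.bd_mem_isom.1 (hM h)).2

include hM hP

/-- A one-sided element commuting up to a scalar with an anisotropic element normalises the system. -/
theorem mem_N_of_commute {C : GL (K k) F} (hC : C ∈ sp.kerGroup M) {y : L k} (hy : sp.T.q y = 1) {c : F}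
    (hc : (C : 𝕂) * sp.T.P y = c • (sp.T.P y * (C : 𝕂))) : C ∈ sp.T.N := by
  have main : ∀ C ∈ sp.kerGroup M, (C : 𝕂) * sp.T.P y = sp.T.P y * (C : 𝕂) → C ∈ sp.T.N := by
    intro C hC hc
    have hg : sp.bd (C, C) ∈ M := by
      have := mul_mem (sp.bd_swap_mem (sp.gl_u_mem hk h2 hNO) hC) hC
      rwa [MonoidHom.comp_apply, MonoidHom.inr_apply, ← map_mul, Prod.mk_mul_mk, mul_one, one_mul] at this
    have hq : ∀ x, x = a ∨ x = u → S.q (sp.φ y + x) = 1 := by
      intro x hx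
      rcases hx with rfl | rfl <;>
        simp [S.q_add, sp.q_φ, hy, sp.q_a, sp.q_u, S.sk (sp.φ y), (sp.perp y).1, (sp.perp y).2]
    have hB : S.B (sp.φ y + a) (sp.φ y + u) = 1 := by
      simp [map_add, LinearMap.add_apply, sp.B_φ, sp.T.B_self, S.sk (sp.φ y) u, (sp.perp y).1, (sp.perp y).2,
        sp.B_au]
    refine (sp.of_bd_mem_N (hP _ _ (hq a (Or.inl rfl)) (hq u (Or.inr rfl)) hB _ hg ?_ ?_)).1
    · obtain ⟨l, -, hl⟩ := S.P_add_coeff (sp.φ y) a
      refine sp.Φ_inj ?_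
      rw [map_mul, map_mul, sp.Φ_bd, hl, sp.Φ_smul, map_mul, sp.P_φ, sp.P_a, fromBlocks_multiply,
        mul_smul_comm, smul_mul_assoc, fromBlocks_multiply, fromBlocks_multiply]
      simp [hc]
    · obtain ⟨l, -, hl⟩ := S.P_add_coeff (sp.φ y) u
      refine sp.Φ_inj ?_
      rw [map_mul, map_mul, sp.Φ_bd, hl, sp.Φ_smul, map_mul, sp.P_φ, sp.P_u, fromBlocks_multiply,
        mul_smul_comm, smul_mul_assoc, fromBlocks_multiply, fromBlocks_multiply]
      simp [hc]
  have hCi := sp.kerGroup_le hk h2 hNO hM hC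
  have hc2 : c * c = 1 := sp.T.smul_sq_eq_one (g := C * sp.T.gl y) (h := sp.T.gl y * C)
    (mul_mem hCi (sp.T.gl_mem_isom y)) (mul_mem (sp.T.gl_mem_isom y) hCi)
    (by rw [Units.val_mul, Units.val_mul, Sys.coe_gl]; exact hc)
  rcases mul_self_eq_one_iff.1 hc2 with rfl | rfl
  · exact main C hC (by rw [hc, one_smul])
  obtain ⟨z, hz⟩ : ∃ z, sp.T.B y z = 1 := by
    by_contra hcon
    push Not at hcon
    have : y = 0 := sp.T.nondeg y fun w => (zmod2_cases _).resolve_right (hcon w)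
    rw [this, sp.T.q_zero] at hy
    exact zero_ne_one hy
  have h := main (C * sp.T.gl z) (mul_mem hC (sp.gl_mem_kerGroup hk h2 hNO z)) (by
    rw [Units.val_mul, Sys.coe_gl, mul_assoc, sp.T.comm z y, sp.T.sk, hz, sgn_one, mul_smul_comm,
      ← mul_assoc, hc, smul_mul_assoc, smul_smul, neg_one_mul, neg_neg, one_smul, mul_assoc])
  simpa using mul_mem h (inv_mem (sp.T.gl_mem_N z))

/-- A one-sided element of the normaliser fixing an anisotropic plane of labels fixes all labels. -/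
theorem sP_eq_of_fix {C : GL (K k) F} (hC : C ∈ sp.kerGroup M) (hCN : C ∈ sp.T.N) {v w : L k}
    (hv : sp.T.q v = 1) (hw : sp.T.q w = 1) (hvw : sp.T.B v w = 1) (hCv : sp.T.sP C v = v)
    (hCw : sp.T.sP C w = w) (x : L k) : sp.T.sP C x = x := by
  have hsign : ∀ z, ∃ α : ZMod 2, sgn F α = sp.T.cP C z := by
    intro z
    rcases mul_self_eq_one_iff.1 (sp.T.cP_sq hCN z) with h | h
    · exact ⟨0, by rw [sgn_zero, h]⟩
    · exact ⟨1, by rw [sgn_one, h]⟩
  obtain ⟨α, hα⟩ := hsign v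
  obtain ⟨β, hβ⟩ := hsign w
  obtain ⟨z, hz1, hz2⟩ := sp.T.quad.exists_dual (a := v) (b := w)
    (fun h => by rw [h, sp.T.q_zero] at hv; exact zero_ne_one hv)
    (fun h => by rw [h, sp.T.q_zero] at hw; exact zero_ne_one hw)
    (fun h => by rw [h, sp.T.B_self] at hvw; exact zero_ne_one hvw) α β
  have hzN := sp.T.gl_mem_N z
  have hC' : C * sp.T.gl z ∈ sp.kerGroup M := mul_mem hC (sp.gl_mem_kerGroup hk h2 hNO z)
  have hcomm : ∀ r (γ : ZMod 2), sgn F γ = sp.T.cP C r → sp.T.B r z = γ → sp.T.sP C r = r →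
      ((C * sp.T.gl z : GL (K k) F) : 𝕂) * sp.T.P r = sp.T.P r * ((C * sp.T.gl z : GL (K k) F) : 𝕂) := by
    intro r γ hγ hB hfix
    rw [Units.val_mul, Sys.coe_gl, mul_assoc, sp.T.comm z r, sp.T.sk, hB, hγ, mul_smul_comm, ← mul_assoc,
      sp.T.act_spec hCN, hfix, smul_mul_assoc, smul_smul, sp.T.cP_sq hCN, one_smul, mul_assoc]
  have hlift : ∀ r, ((C * sp.T.gl z : GL (K k) F) : 𝕂) * sp.T.P r =
      sp.T.P r * ((C * sp.T.gl z : GL (K k) F) : 𝕂) →
      ((sp.bd (1, C * sp.T.gl z) : GL ι F) : Matrix ι ι F) * S.P (sp.φ r) =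
        S.P (sp.φ r) * ((sp.bd (1, C * sp.T.gl z) : GL ι F) : Matrix ι ι F) := by
    intro r hr
    refine sp.Φ_inj ?_
    rw [map_mul, map_mul, sp.Φ_bd, sp.P_φ, fromBlocks_multiply, fromBlocks_multiply]
    simpa using hr
  obtain ⟨y, c, hy⟩ := sp.exists_of_bd_one_mem_N (hP _ _ (by rw [sp.q_φ, hv]) (by rw [sp.q_φ, hw])
    (by rw [sp.B_φ, hvw]) _ hC' (hlift v (hcomm v α hα hz1 hCv)) (hlift w (hcomm w β hβ hz2 hCw)))
  have hCz := mul_mem hCN hzN
  have h1 := (sp.T.act_congr hCz (sp.T.gl_mem_N y) (a := c) (by rw [hy, Sys.coe_gl]) x).1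
  rw [(sp.T.act_gl y x).1, (sp.T.act_mul hCN hzN x).1, (sp.T.act_gl z x).1] at h1
  exact h1

/-- The one-sided elements of the normaliser fix all labels. -/
theorem sP_eq_self {C : GL (K k) F} (hC : C ∈ sp.kerGroup M) (hCN : C ∈ sp.T.N) (x : L k) :
    sp.T.sP C x = x := by
  obtain ⟨U, hU, hUk⟩ := sp.T.plus
  have hR : PlaneRigid sp.T.quad
      (fun f => ∃ D ∈ sp.kerGroup M, D ∈ sp.T.N ∧ sp.T.sP D = f) :=
    { add := by rintro _ ⟨D, -, hD, rfl⟩ a b; exact sp.T.act_add hD a b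
      q_eq := by rintro _ ⟨D, -, hD, rfl⟩ a; exact sp.T.act_q h2 hD a
      comm := by
        rintro _ ⟨D, hDk, hD, rfl⟩ v w hv hw -
        obtain ⟨n, hn, hn'⟩ := sp.T.exists_pair_mem_D hk h2 hv hw
        have hnN := sp.T.D_le_N hn
        have hnn : sp.bd (n, n) ∈ M := D_le_of_le hNO (sp.bd_diag_mem_D hn)
        have hconj : n * D⁻¹ * n⁻¹ ∈ sp.kerGroup M := by
          have := mul_mem (mul_mem hnn (inv_mem hDk : sp.bd.comp (MonoidHom.inr _ _) D⁻¹ ∈ M)) (inv_mem hnn)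
          rw [← map_inv, MonoidHom.comp_apply, MonoidHom.inr_apply, ← map_mul, ← map_mul] at this
          simpa [mem_kerGroup] using this
        have hE : D * (n * D⁻¹ * n⁻¹) ∈ sp.T.N := mul_mem hD (mul_mem (mul_mem hnN (inv_mem hD)) (inv_mem hnN))
        refine ⟨_, ⟨_, mul_mem hDk hconj, hE, rfl⟩, fun z => ?_⟩
        have e : D * (n * D⁻¹ * n⁻¹) * (n * D) = D * n := by group
        have e1 := (sp.T.act_mul hE (mul_mem hnN hD) z).1
        rw [e, (sp.T.act_mul hnN hD z).1, (sp.T.act_mul hD hnN z).1, hn', hn'] at e1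
        exact e1.symm
      fix := by
        rintro _ ⟨D, hDk, hD, rfl⟩ v w hv hw hvw h1 h2' z
        exact sp.sP_eq_of_fix hk h2 hNO hM hP hDk hD hv hw hvw h1 h2' z }
  exact hR.eq_id sp.T.quad hU hUk hk ⟨C, hC, hCN, rfl⟩ x

/-- The one-sided elements are the elements of the smaller system, up to sign. -/
theorem exists_of_mem_kerGroup {C : GL (K k) F} (hC : C ∈ sp.kerGroup M) :
    ∃ (y : L k) (c : F), c * c = 1 ∧ (C : 𝕂) = c • sp.T.P y := by
  haveI := sp.T.nonempty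
  set G := sp.kerGroup M with hG
  have hfin : ∀ D ∈ G, D ∈ sp.T.N → ∃ (y : L k) (c : F), c * c = 1 ∧ (D : 𝕂) = c • sp.T.P y :=
    fun D hD hDN => sp.T.exists_of_fixed h2 hDN (sp.sP_eq_self hk h2 hNO hM hP hD hDN)
  suffices h : C ∈ sp.T.N from hfin C hC h
  let x : L k → Sys.Q G := fun y => QuotientGroup.mk ⟨sp.T.gl y, sp.gl_mem_kerGroup hk h2 hNO y⟩
  let X : Subgroup (Sys.Q G) := (sp.T.N.subgroupOf G).map (QuotientGroup.mk' (Sys.scal G))
  have hmemX : ∀ D : G, (QuotientGroup.mk D : Sys.Q G) ∈ X ↔ (D : GL (K k) F) ∈ sp.T.N :=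
    fun D => sp.T.mem_NQ (sp.kerGroup_le hk h2 hNO hM) (g := D)
  have hXx : ∀ q ∈ X, ∃ y, q = x y := by
    intro q hq
    induction q using QuotientGroup.induction_on with
    | _ D =>
      obtain ⟨y, c, -, hy⟩ := hfin _ D.2 ((hmemX D).1 hq)
      exact ⟨y, Sys.mk_eq_mk G (c := c) (by rw [hy]; rfl)⟩
  have hxx : ∀ y z, x y * x z = x (y + z) := by
    intro y z
    obtain ⟨l, hl, hl'⟩ := sp.T.P_add_coeff y z
    rw [← QuotientGroup.mk_mul]
    exact (Sys.mk_eq_mk G (c := l) hl').symm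
  have hx1 : ∀ y, x y * x y = 1 := by
    intro y
    rw [← QuotientGroup.mk_mul, ← QuotientGroup.mk_one]
    exact Sys.mk_eq_mk G (c := sgn F (sp.T.q y)) (sp.T.sq y)
  have hcent : ∀ v, sp.T.q v = 1 → ∀ g, g * x v = x v * g → g ∈ X := by
    intro v hv g hg
    induction g using QuotientGroup.induction_on with
    | _ D =>
      rw [← QuotientGroup.mk_mul, ← QuotientGroup.mk_mul] at hg
      obtain ⟨c, hc⟩ := Sys.exists_smul_of_mk_eq G hg
      exact (hmemX D).2 (sp.mem_N_of_commute hk h2 hNO hM hP D.2 hv hc)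
  obtain ⟨v, -, hv⟩ := sp.T.quad.exists_perp_coset ∅ (by rw [Finset.card_empty]; omega) 0 1
  rw [zero_add] at hv
  obtain ⟨w, hw, hvw⟩ := exists_partner sp.T.quad hk (e := v) hv
  have hxX : ∀ y, x y ∈ X := fun y => (hmemX _).2 (sp.T.gl_mem_N y)
  have htop : X = ⊤ := by
    refine eq_top_of_centralisers (a := x v) (b := x w) (fun q => ⟨1, ?_⟩) ?_ ?_ (hxX v) (hxX w) (hx1 v)
      (hx1 w) (hcent v hv) (hcent w hw) ?_
    · obtain ⟨y, hy⟩ := hXx q q.2
      ext
      rw [Subgroup.coe_pow, hy, pow_one, pow_two, hx1]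
      rfl
    · intro q hq r hr
      obtain ⟨y, rfl⟩ := hXx q hq
      obtain ⟨z, rfl⟩ := hXx r hr
      rw [hxx, hxx, add_comm]
    · intro g hg
      induction g using QuotientGroup.induction_on with
      | _ D =>
        refine (hmemX D).2 ⟨sp.kerGroup_le hk h2 hNO hM D.2, fun y => ?_⟩
        obtain ⟨z, hz⟩ := hXx _ (hg _ (hxX y))
        rw [mul_inv_eq_iff_eq_mul, ← QuotientGroup.mk_mul, ← QuotientGroup.mk_mul] at hz
        obtain ⟨c, hc⟩ := Sys.exists_smul_of_mk_eq G hz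
        exact ⟨z, c, hc⟩
    · rw [hxx]
      exact hcent _ (by
        rw [sp.T.q_add, show sp.T.q v = 1 from hv, show sp.T.q w = 1 from hw,
          show sp.T.B v w = 1 from hvw]
        decide)
  exact (hmemX ⟨C, hC⟩).1 (htop ▸ Subgroup.mem_top _)

end Split

end CfsgLib.Geometric.OrthType
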