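import Cfsg.Agent.Lib.Geometric.OrthType.Transitive

/-!
The local conditions on an overgroup at the non-singular and at the singular labels of a system of plus type.
-/

set_option autoImplicit false

namespace CfsgLib.Geometric.OrthType

open CfsgLib.Geometric

variable {k : ℕ} {ι : Type} [Fintype ι] [DecidableEq ι] {F : Type*} [Field F]

namespace Sys

variable (S : Sys k ι F) (M : Subgroup (GL ι F))

/-- The centraliser of `P u` in `M` consists of products of an element of `M` normalising the system and
an element of the algebra generated by `P u`. -/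
def Half (u : L k) : Prop :=
  ∀ g ∈ M, (g : Matrix ι ι F) * S.P u = S.P u * (g : Matrix ι ι F) →
    ∃ m ∈ M, m ∈ S.N ∧ ∃ α β : F, (g : Matrix ι ι F) = (m : Matrix ι ι F) * (α • 1 + β • S.P u)

/-- The centralisers of non-singular labels in `M` normalise the system. -/
def LocalNonsing : Prop :=
  ∀ u, S.q u = 1 → ∀ g ∈ M, (g : Matrix ι ι F) * S.P u = S.P u * (g : Matrix ι ι F) → g ∈ S.N

/-- The centralisers of singular labels in `M`, up to scalars, normalise the system. -/
def LocalSing : Prop :=
  ∀ a, a ≠ 0 → S.q a = 0 → ∀ g ∈ M, ∀ c : F,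
    (g : Matrix ι ι F) * S.P a = c • (S.P a * (g : Matrix ι ι F)) → g ∈ S.N

end Sys

end CfsgLib.Geometric.OrthType
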