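import Cfsg.Agent.Lib.Geometric.OrthType.SplitDef

/-!
A plus type system splits off a hyperbolic pair of singular labels.
-/

set_option autoImplicit false
set_option linter.unusedSectionVars false
set_option linter.style.haveILetI false

namespace CfsgLib.Geometric.OrthType

open Matrix Cfsg.Geo Module CfsgLib.Geometric
open CfsgLib.Geometric.SympType (Quad zmod2_cases)
open CfsgLib.Geometric.PauliMax (sgn sgn_zero sgn_one sgn_cases sgn_sq sgn_inj sgn_add sgn_ne_zero)

variable {F : Type*} [Field F]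

/-- Inverting two blocks. -/
private theorem split_equiv {ι : Type} [Fintype ι] [DecidableEq ι] (h2 : (2 : F) ≠ 0)
    (A U : Module.End F (ι → F)) (hA : ∀ x, A (A x) = x) (hU : ∀ x, U (U x) = x)
    (hAU : ∀ x, A (U x) = - U (A x)) :
    ∃ L : (↥(LinearMap.eqLocus A LinearMap.id) × ↥(LinearMap.eqLocus A LinearMap.id)) ≃ₗ[F] (ι → F),
      ∀ p, L p = (p.1 : ι → F) + U (p.2 : ι → F) := by
  have hmem : ∀ z, A z = z ↔ z ∈ LinearMap.eqLocus A LinearMap.id := fun z => Iff.rfl
  have hUA : ∀ x, U (A x) = - A (U x) := fun x => by rw [hAU, neg_neg]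
  let L : (↥(LinearMap.eqLocus A LinearMap.id) × ↥(LinearMap.eqLocus A LinearMap.id)) →ₗ[F] (ι → F) :=
    (LinearMap.eqLocus A LinearMap.id).subtype.coprod (U.comp (LinearMap.eqLocus A LinearMap.id).subtype)
  refine ⟨LinearEquiv.ofBijective L ⟨?_, ?_⟩, fun p => rfl⟩
  · intro p q h
    have h' : (p.1 : ι → F) + U (p.2 : ι → F) = (q.1 : ι → F) + U (q.2 : ι → F) := h
    have hA' := congrArg A h'
    simp only [map_add, (hmem _).2 p.1.2, (hmem _).2 q.1.2, hAU, (hmem _).2 p.2.2, (hmem _).2 q.2.2] at hA'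
    have h1 : (2 : F) • (p.1 : ι → F) = (2 : F) • (q.1 : ι → F) := by
      rw [two_smul, two_smul]
      calc (p.1 : ι → F) + (p.1 : ι → F) = ((p.1 : ι → F) + U (p.2 : ι → F)) + ((p.1 : ι → F) + -U (p.2 : ι → F)) := by abel
        _ = ((q.1 : ι → F) + U (q.2 : ι → F)) + ((q.1 : ι → F) + -U (q.2 : ι → F)) := by rw [h', hA']
        _ = (q.1 : ι → F) + (q.1 : ι → F) := by abel
    have h1' : (p.1 : ι → F) = (q.1 : ι → F) := smul_right_injective _ h2 h1
    rw [h1'] at h'
    have h2' := congrArg U (add_left_cancel h')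
    rw [hU, hU] at h2'
    exact Prod.ext (Subtype.ext h1') (Subtype.ext h2')
  · intro z
    refine ⟨(⟨(2 : F)⁻¹ • (z + A z), (hmem _).1 ?_⟩, ⟨(2 : F)⁻¹ • (U z - U (A z)), (hmem _).1 ?_⟩), ?_⟩
    · rw [map_smul, map_add, hA, add_comm]
    · rw [map_smul, map_sub, hAU z, hAU (A z), hA]
      congr 1
      abel
    · show (2 : F)⁻¹ • (z + A z) + U ((2 : F)⁻¹ • (U z - U (A z))) = z
      rw [map_smul, map_sub, hU, hU, ← smul_add, show z + A z + (z - A z) = (2 : F) • z by
        rw [two_smul]; abel, inv_smul_smul₀ h2]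

/-- A matrix commuting with the two model matrices has equal diagonal blocks. -/
private theorem diag_of_commute {m : ℕ} (h2 : (2 : F) ≠ 0) (X : Matrix (Fin m ⊕ Fin m) (Fin m ⊕ Fin m) F)
    (hv : X * fromBlocks 1 0 0 (-1) = fromBlocks 1 0 0 (-1) * X)
    (hu : X * fromBlocks 0 1 1 0 = fromBlocks 0 1 1 0 * X) :
    X = fromBlocks X.toBlocks₁₁ 0 0 X.toBlocks₁₁ := by
  rw [← fromBlocks_toBlocks X] at hv hu
  simp only [fromBlocks_multiply, Matrix.mul_one, Matrix.one_mul, Matrix.mul_zero, Matrix.zero_mul, add_zero,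
    zero_add, Matrix.mul_neg, Matrix.neg_mul, fromBlocks_inj] at hv hu
  obtain ⟨-, h12, h21, -⟩ := hv
  have hz : ∀ Y : Matrix ((Fin m)) ((Fin m)) F, -Y = Y → Y = 0 := fun Y h => by
    have : (2 : F) • Y = 0 := by rw [two_smul]; nth_rewrite 1 [← h]; exact neg_add_cancel Y
    exact (smul_eq_zero.1 this).resolve_left h2
  have h0 : X.toBlocks₁₂ = 0 := hz _ h12
  have h0' : X.toBlocks₂₁ = 0 := hz _ h21.symm
  conv_lhs => rw [← fromBlocks_toBlocks X, h0, h0']
  rw [hu.2.1]

/-- Splitting along two singular labels with product one. -/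
theorem exists_split {k : ℕ} {ι : Type} [Fintype ι] [DecidableEq ι] (h2 : (2 : F) ≠ 0)
    (S : Sys (k + 1) ι F) {a u : L (k + 1)} (qa : S.q a = 0) (qu : S.q u = 0) (h : S.B a u = 1) :
    Nonempty (Split S a u) := by
  classical
  have hua : S.B u a = 1 := (S.sk u a).trans h
  set A := Matrix.toLin' (S.P a) with hAdef
  set U := Matrix.toLin' (S.P u) with hUdef
  have hA : ∀ x, A (A x) = x := fun x => by
    rw [hAdef, ← Matrix.toLin'_mul_apply, S.sq, qa, sgn_zero, one_smul, Matrix.toLin'_one, LinearMap.id_apply]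
  have hU : ∀ x, U (U x) = x := fun x => by
    rw [hUdef, ← Matrix.toLin'_mul_apply, S.sq, qu, sgn_zero, one_smul, Matrix.toLin'_one, LinearMap.id_apply]
  have hAU : ∀ x, A (U x) = - U (A x) := fun x => by
    rw [hAdef, hUdef, ← Matrix.toLin'_mul_apply, ← Matrix.toLin'_mul_apply, S.comm a u, h, sgn_one,
      neg_one_smul, map_neg, LinearMap.neg_apply]
  set E := LinearMap.eqLocus A LinearMap.id with hEdef
  obtain ⟨Lv, hL⟩ : ∃ Lv : (↥E × ↥E) ≃ₗ[F] (ι → F), ∀ p, Lv p = (p.1 : ι → F) + U (p.2 : ι → F) :=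
    split_equiv h2 A U hA hU hAU
  have hEk : Module.finrank F E = 2 ^ k := by
    have h' := Lv.finrank_eq
    rw [Module.finrank_prod, Module.finrank_pi, S.card, pow_succ] at h'
    omega
  obtain ⟨e⟩ : Nonempty ((K k → F) ≃ₗ[F] E) :=
    FiniteDimensional.nonempty_linearEquiv_of_finrank_eq (by rw [hEk, Module.finrank_fin_fun])
  let Ψ : (K k ⊕ K k → F) ≃ₗ[F] (ι → F) :=
    (LinearEquiv.sumArrowLequivProdArrow (K k) (K k) F F).trans ((e.prodCongr e).trans Lv)
  have hΨ : ∀ z, Ψ z = (e (z ∘ Sum.inl) : ι → F) + U (e (z ∘ Sum.inr) : ι → F) := fun z =>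
    hL ((e.prodCongr e) (LinearEquiv.sumArrowLequivProdArrow (K k) (K k) F F z))
  let Φ : Matrix ι ι F ≃ₐ[F] Matrix (K k ⊕ K k) (K k ⊕ K k) F :=
    Matrix.toLinAlgEquiv'.trans ((Ψ.symm.conjAlgEquiv F).trans LinearMap.toMatrixAlgEquiv')
  have hΦ : ∀ X z, Ψ (Matrix.mulVec (Φ X) z) = Matrix.mulVec X (Ψ z) := fun X z => by
    have : Matrix.mulVec (Φ X) z = Ψ.symm (Matrix.mulVec X (Ψ z)) := by
      rw [← Matrix.toLinAlgEquiv'_apply]
      simp [Φ, Matrix.toLinAlgEquiv'_apply]
    rw [this, LinearEquiv.apply_symm_apply]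
  have hext : ∀ X Y, (∀ z, Matrix.mulVec X (Ψ z) = Ψ (Matrix.mulVec Y z)) → Φ X = Y := fun X Y h =>
    Matrix.ext_of_mulVec_single fun i => Ψ.injective (by rw [hΦ, h])
  have hfb : ∀ (a b c d : Matrix (K k) (K k) F) (z : K k ⊕ K k → F),
      (Matrix.mulVec (fromBlocks a b c d) z) ∘ Sum.inl = a *ᵥ (z ∘ Sum.inl) + b *ᵥ (z ∘ Sum.inr) ∧
      (Matrix.mulVec (fromBlocks a b c d) z) ∘ Sum.inr = c *ᵥ (z ∘ Sum.inl) + d *ᵥ (z ∘ Sum.inr) := by
    intro a b c d z
    rw [fromBlocks_mulVec]
    exact ⟨rfl, rfl⟩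
  have hPa : Φ (S.P a) = fromBlocks 1 0 0 (-1) := by
    refine hext _ _ fun z => ?_
    obtain ⟨h1, h2'⟩ := hfb 1 0 0 (-1) z
    have hfixed : ∀ q : E, A (q : ι → F) = q := fun q => q.2
    rw [← Matrix.toLin'_apply, ← hAdef, hΨ, hΨ, h1, h2', map_add, hAU, hfixed, hfixed]
    simp [Matrix.neg_mulVec]
  have hPu : Φ (S.P u) = fromBlocks 0 1 1 0 := by
    refine hext _ _ fun z => ?_
    obtain ⟨h1, h2'⟩ := hfb 0 1 1 0 z
    rw [← Matrix.toLin'_apply, ← hUdef, hΨ, hΨ, h1, h2', map_add, hU]
    simp [add_comm]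
  -- the two blocks are orthogonal
  have hfU : ∀ x y, S.f (U x) (U y) = S.f x y := fun x y => S.isom_P u x y
  have hcross : ∀ x y : E, S.f (x : ι → F) (U (y : ι → F)) = 0 := by
    intro x y
    have h1 : S.f (A (x : ι → F)) (A (U (y : ι → F))) = S.f (x : ι → F) (U (y : ι → F)) :=
      S.isom_P a _ _
    rw [hAU, show A (x : ι → F) = (x : ι → F) from x.2, show A (y : ι → F) = (y : ι → F) from y.2,
      S.f_neg_right] at h1
    exact (mul_eq_zero.1 (show (2 : F) * S.f (x : ι → F) (U (y : ι → F)) = 0 by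
      linear_combination -h1)).resolve_left h2
  have hfΨ : ∀ z z', S.f (Ψ z) (Ψ z') = S.f (e (z ∘ Sum.inl) : ι → F) (e (z' ∘ Sum.inl) : ι → F) +
      S.f (e (z ∘ Sum.inr) : ι → F) (e (z' ∘ Sum.inr) : ι → F) := fun z z' => by
    rw [hΨ, hΨ, S.bil.add_left, S.bil.add_right, S.bil.add_right, hcross, hfU,
      ((S.symm _ _).trans (hcross (e (z' ∘ Sum.inl)) (e (z ∘ Sum.inr)))), add_zero, zero_add]
  have hel : ∀ x : K k → F, Ψ (Sum.elim x 0) = (e x : ι → F) := fun x => by
    rw [hΨ, Sum.elim_comp_inl, Sum.elim_comp_inr]; simp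
  have hTb : IsBilinearForm fun x y : K k → F => S.f (e x : ι → F) (e y : ι → F) := by
    refine ⟨fun x y v => ?_, fun c x v => ?_, fun v x y => ?_, fun c v x => ?_⟩
    · rw [map_add, Submodule.coe_add, S.bil.add_left]
    · rw [map_smul, Submodule.coe_smul, S.bil.smul_left]
    · rw [map_add, Submodule.coe_add, S.bil.add_right]
    · rw [map_smul, Submodule.coe_smul, S.bil.smul_right]
  have hTn : IsNondegenerateForm fun x y : K k → F => S.f (e x : ι → F) (e y : ι → F) := by
    have hnd : ∀ v : K k → F, v ≠ 0 → ∃ y, S.f (e v : ι → F) (e y : ι → F) ≠ 0 := by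
      intro v hv
      by_contra hc
      push Not at hc
      have hv0 : (e v : ι → F) ≠ 0 := fun h0 => hv (e.map_eq_zero_iff.1 (Subtype.ext h0))
      obtain ⟨w, hw⟩ := (S.nd _ hv0).2
      obtain ⟨z, rfl⟩ := Ψ.surjective w
      rw [hΨ, S.bil.add_right, hc, hcross, add_zero] at hw
      exact hw rfl
    intro v hv
    obtain ⟨y, hy⟩ := hnd v hv
    exact ⟨⟨y, fun h0 => hy ((S.symm _ _).trans h0)⟩, ⟨y, hy⟩⟩
  -- the orthogonal complement
  let c : L (k + 1) →ₗ[ZMod 2] ZMod 2 × ZMod 2 := (S.B a).prod (S.B u)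
  have hcsurj : Function.Surjective c := fun p => ⟨p.1 • u + p.2 • a, by
    simp [c, S.B_self, hua, h]⟩
  have hker : Module.finrank (ZMod 2) (LinearMap.ker c) = 2 * k := by
    have h' := LinearMap.finrank_range_add_finrank_ker c
    rw [LinearMap.range_eq_top.2 hcsurj, finrank_top, Module.finrank_prod, Module.finrank_self,
      Module.finrank_fin_fun] at h'
    omega
  obtain ⟨eW⟩ : Nonempty (L k ≃ₗ[ZMod 2] LinearMap.ker c) :=
    FiniteDimensional.nonempty_linearEquiv_of_finrank_eq (by rw [hker, Module.finrank_fin_fun])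
  let φ : L k →ₗ[ZMod 2] L (k + 1) := (LinearMap.ker c).subtype.comp eW.toLinearMap
  have hφinj : Function.Injective φ := (LinearMap.ker c).injective_subtype.comp eW.injective
  have hφ : ∀ y, S.B a (φ y) = 0 ∧ S.B u (φ y) = 0 := fun y => by
    have h' : c (eW y : L (k + 1)) = 0 := (eW y).2
    exact ⟨congrArg Prod.fst h', congrArg Prod.snd h'⟩
  have hcases : ∀ w, ∃ (y : L k) (d e : ZMod 2), w = φ y + d • a + e • u := fun w => by
    have hmem : w + S.B u w • a + S.B a w • u ∈ LinearMap.ker c := by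
      rw [LinearMap.mem_ker]
      simp [c, S.B_self, hua, h, CharTwo.add_self_eq_zero]
    refine ⟨eW.symm ⟨_, hmem⟩, S.B u w, S.B a w, ?_⟩
    simp only [φ, LinearMap.coe_comp, Submodule.coe_subtype, Function.comp_apply, LinearEquiv.coe_coe,
      LinearEquiv.apply_symm_apply]
    calc w = w + (S.B u w • a + S.B u w • a) + (S.B a w • u + S.B a w • u) := by
          rw [two_torsion, two_torsion, add_zero, add_zero]
      _ = _ := by abel
  have hdiag : ∀ y, Φ (S.P (φ y)) = fromBlocks (Φ (S.P (φ y))).toBlocks₁₁ 0 0 (Φ (S.P (φ y))).toBlocks₁₁ := by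
    intro y
    refine diag_of_commute h2 _ ?_ ?_
    · rw [← hPa, ← map_mul, ← map_mul, S.comm (φ y) a, S.sk (φ y) a, (hφ y).1, sgn_zero, one_smul]
    · rw [← hPu, ← map_mul, ← map_mul, S.comm (φ y) u, S.sk (φ y) u, (hφ y).2, sgn_zero, one_smul]
  set P : L k → Matrix (K k) (K k) F := fun y => (Φ (S.P (φ y))).toBlocks₁₁ with hP
  have hblock : ∀ a b : Matrix (K k) (K k) F, fromBlocks a 0 0 a = fromBlocks b 0 0 b → a = b :=
    fun a b h => (fromBlocks_inj.1 h).1
  have hmul : ∀ a b : Matrix (K k) (K k) F,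
      fromBlocks (a * b) 0 0 (a * b) = fromBlocks a 0 0 a * fromBlocks b 0 0 b := fun a b => by
    simp [fromBlocks_multiply]
  let T : Sys k (K k) F :=
    { f := fun x y => S.f (e x : ι → F) (e y : ι → F)
      bil := hTb
      symm := fun x y => S.symm _ _
      nd := hTn
      P := P
      q := fun y => S.q (φ y)
      B := S.B.compl₁₂ φ φ
      q_add := fun v w => by rw [map_add, S.q_add, LinearMap.compl₁₂_apply]
      nondeg := fun y hy => hφinj (by
        rw [map_zero]
        refine S.nondeg _ fun w => ?_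
        obtain ⟨z, d, e', rfl⟩ := hcases w
        have h1 := hy z
        rw [LinearMap.compl₁₂_apply] at h1
        rw [map_add, map_add, map_smul, map_smul, S.sk (φ y) a, S.sk (φ y) u, (hφ y).1, (hφ y).2, h1,
          smul_zero, smul_zero, add_zero, add_zero])
      plus := by
        obtain ⟨W, hW, hWd⟩ := S.plus
        have ha0 : a ≠ 0 := fun h0 => by rw [h0, map_zero] at hua; exact zero_ne_one hua
        set W₁ := W ⊓ LinearMap.ker (S.B a) ⊔ Submodule.span (ZMod 2) {a} with hW₁
        have hts : ∀ x ∈ W₁, S.q x = 0 := by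
          intro x hx
          obtain ⟨y, hy, z, hz, rfl⟩ := Submodule.mem_sup.1 hx
          obtain ⟨t, rfl⟩ := Submodule.mem_span_singleton.1 hz
          have hy2 : S.B a y = 0 := hy.2
          rw [S.q_add, hW y hy.1, map_smul, S.sk y a, hy2, smul_zero, add_zero, zero_add]
          rcases zmod2_cases t with rfl | rfl
          · rw [zero_smul, S.q_zero]
          · rw [one_smul, qa]
        have hd1 : k + 1 ≤ finrank (ZMod 2) W₁ := by
          by_cases haW : a ∈ W
          · refine hWd.ge.trans (Submodule.finrank_mono fun x hx => ?_)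
            refine Submodule.mem_sup_left ⟨hx, LinearMap.mem_ker.2 ?_⟩
            have h1 := hW _ (W.add_mem haW hx)
            rw [S.q_add, qa, hW x hx, zero_add, zero_add] at h1
            exact h1
          · have h1 := Submodule.finrank_sup_add_finrank_inf_eq W (LinearMap.ker (S.B a))
            have h3 := Submodule.finrank_le (W ⊔ LinearMap.ker (S.B a))
            have h4 := LinearMap.finrank_range_add_finrank_ker (S.B a)
            have h5 : finrank (ZMod 2) (LinearMap.range (S.B a)) ≤ 1 :=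
              (Submodule.finrank_le _).trans_eq (finrank_self _)
            rw [Module.finrank_fin_fun] at h3 h4
            have h6 : W ⊓ LinearMap.ker (S.B a) < W₁ :=
              left_lt_sup.2 fun hle => haW (hle (Submodule.mem_span_singleton_self a)).1
            have h7 := Submodule.finrank_lt_finrank_of_lt h6
            omega
        set W₂ := W₁ ⊓ LinearMap.ker (S.B u) with hW₂
        have hd2 : k ≤ finrank (ZMod 2) W₂ := by
          have h1 := Submodule.finrank_sup_add_finrank_inf_eq W₁ (LinearMap.ker (S.B u))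
          have h3 := Submodule.finrank_le (W₁ ⊔ LinearMap.ker (S.B u))
          have h4 := LinearMap.finrank_range_add_finrank_ker (S.B u)
          have h5 : finrank (ZMod 2) (LinearMap.range (S.B u)) ≤ 1 :=
            (Submodule.finrank_le _).trans_eq (finrank_self _)
          rw [Module.finrank_fin_fun] at h3 h4
          rw [hW₂]
          omega
        have hmap : W₂ ≤ (W₂.comap φ).map φ := by
          intro x hx
          obtain ⟨y, d, e', rfl⟩ := hcases x
          have hx1 : φ y + d • a + e' • u ∈ W₁ := hx.1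
          have hu0 : S.B u (φ y + d • a + e' • u) = 0 := hx.2
          have ha' : S.B a (φ y + d • a + e' • u) = 0 := by
            have h1 := hts _ (W₁.add_mem (Submodule.mem_sup_right (Submodule.mem_span_singleton_self a)) hx1)
            rw [S.q_add, qa, hts _ hx1, zero_add, zero_add] at h1
            exact h1
          simp only [map_add, map_smul, (hφ y).2, hua, S.B_self, smul_eq_mul, mul_one, mul_zero, zero_add,
            add_zero] at hu0
          simp only [map_add, map_smul, (hφ y).1, h, S.B_self, smul_eq_mul, mul_one, mul_zero,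
            zero_add] at ha'
          rw [hu0, ha', zero_smul, zero_smul, add_zero, add_zero] at hx ⊢
          exact ⟨y, hx, rfl⟩
        have hk' : k ≤ finrank (ZMod 2) (W₂.comap φ) := by
          have h1 := Submodule.finrank_mono hmap
          rw [(Submodule.equivMapOfInjective φ hφinj _).finrank_eq.symm] at h1
          omega
        obtain ⟨v, hv⟩ := exists_linearIndependent_of_le_finrank hk'
        refine ⟨Submodule.span (ZMod 2) (Set.range fun i => (v i : L k)), fun x hx => ?_, ?_⟩
        · have hle : Submodule.span (ZMod 2) (Set.range fun i => (v i : L k)) ≤ W₂.comap φ :=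
            Submodule.span_le.2 (by rintro _ ⟨i, rfl⟩; exact (v i).2)
          exact hts _ (hle hx).1
        · rw [show (fun i => (v i : L k)) = (W₂.comap φ).subtype ∘ v from rfl,
            finrank_span_eq_card (hv.map' (W₂.comap φ).subtype (Submodule.ker_subtype _)), Fintype.card_fin]
      zero := by
        refine hblock _ _ ?_
        rw [← hdiag, map_zero, S.zero, map_one, fromBlocks_one]
      sq := fun y => by
        refine hblock _ _ ?_
        rw [hmul, ← hdiag, ← map_mul, S.sq, map_smul, map_one]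
        rw [← fromBlocks_one, fromBlocks_smul, smul_zero]
      comm := fun y z => by
        refine hblock _ _ ?_
        rw [hmul, ← hdiag, ← hdiag, ← map_mul, S.comm, map_smul, map_mul, hdiag y, hdiag z, ← hmul,
          fromBlocks_smul, smul_zero, LinearMap.compl₁₂_apply]
      add := fun y z => by
        obtain ⟨t, ht⟩ := S.add (φ y) (φ z)
        refine ⟨t, hblock _ _ ?_⟩
        rw [← hdiag, map_add, ht, map_smul, map_mul, hdiag y, hdiag z, ← hmul, fromBlocks_smul, smul_zero]
      li := by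
        have hli : LinearIndependent F fun y => Φ (S.P (φ y)) :=
          (S.li.comp φ hφinj).map' Φ.toLinearEquiv.toLinearMap Φ.toLinearEquiv.ker
        let ιd : Matrix (K k) (K k) F →ₗ[F] Matrix (K k ⊕ K k) (K k ⊕ K k) F :=
          { toFun := fun a => fromBlocks a 0 0 a
            map_add' := fun a b => by simp [fromBlocks_add]
            map_smul' := fun t a => by simp [fromBlocks_smul] }
        exact LinearIndependent.of_comp ιd (by
          convert hli using 1
          funext y
          exact (hdiag y).symm)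
      card := Fintype.card_fin _
      isom_P := fun y x x' => by
        have h1 : ∀ x : K k → F, (e (P y *ᵥ x) : ι → F) = S.P (φ y) *ᵥ (e x : ι → F) := fun x => by
          rw [← hel, ← hel, ← hΦ]
          congr 1
          rw [hdiag y, fromBlocks_mulVec]
          simp [hP]
        rw [h1, h1, S.isom_P] }
  exact ⟨⟨qa, qu, h, T, φ, hφinj, fun y => rfl, hφ, hcases, Ψ, Φ, fun X z => (hΦ X z).symm, hfΨ, hPa, hPu,
    hdiag⟩⟩

end CfsgLib.Geometric.OrthType
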