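import Cfsg.Agent.Lib.Geometric.OrthType.Kernel
import Cfsg.Agent.Lib.Geometric.OrthType.SplitExists
import Cfsg.Agent.Lib.Geometric.OrthType.LocalDef

/-!
In an overgroup with the local property at anisotropic planes, the centralisers of singular labels
normalise the system.
-/

set_option autoImplicit false
set_option linter.unusedSectionVars false

namespace CfsgLib.Geometric.OrthType

open Matrix CfsgLib.Geometric
open CfsgLib.Geometric.SympType (Quad zmod2_cases)
open CfsgLib.Geometric.PauliMax (sgn sgn_zero sgn_one sgn_cases sgn_sq sgn_inj sgn_add sgn_ne_zero)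

variable {k : ℕ} {ι : Type} [Fintype ι] [DecidableEq ι] {F : Type*} [Field F]

local notation "𝕂" => Matrix (K k) (K k) F

/-- A singular label has a singular partner. -/
theorem Sys.exists_singular_partner (S : Sys k ι F) {a : L k} (ha : a ≠ 0) (hqa : S.q a = 0) :
    ∃ u, S.q u = 0 ∧ S.B a u = 1 := by
  obtain ⟨d, hd⟩ : ∃ d, S.B a d = 1 := by
    by_contra h
    push Not at h
    exact ha (S.nondeg a fun w => (zmod2_cases _).resolve_right (h w))
  refine ⟨d + S.q d • a, ?_, by rw [map_add, map_smul, S.B_self, smul_zero, add_zero, hd]⟩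
  rcases zmod2_cases (S.q d) with h | h
  · rw [h, zero_smul, add_zero, h]
  · rw [h, one_smul, S.q_add, h, hqa, S.sk d a, hd]; decide

namespace Split

variable {S : Sys (k + 1) ι F} {a u : L (k + 1)} (sp : Split S a u) {M : Subgroup (GL ι F)} [Finite F]
  (hk : 3 ≤ k) (h2 : (2 : F) ≠ 0) (hNO : S.N ⊓ ⁅isom S.f, isom S.f⁆ ≤ M) (hM : M ≤ isom S.f)
  (hP : S.PlaneLocal M)
include hk h2 hNO hM hP

/-- The second component of an element of `M` in block form normalises the smaller system. -/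
theorem mem_N_right {A B : GL (K k) F} (h : sp.bd (A, B) ∈ M) : B ∈ sp.T.N := by
  refine ⟨(sp.bd_mem_isom.1 (hM h)).2, fun y => ?_⟩
  have hB : B * sp.T.gl y * B⁻¹ ∈ sp.kerGroup M := by
    rw [mem_kerGroup]
    have hy : sp.bd (1, sp.T.gl y) ∈ M := sp.gl_mem_kerGroup hk h2 hNO y
    have := mul_mem (mul_mem h hy) (inv_mem h)
    rw [← map_inv, ← map_mul, ← map_mul] at this
    simpa using this
  obtain ⟨z, c, -, hc⟩ := sp.exists_of_mem_kerGroup hk h2 hNO hM hP hB
  refine ⟨z, c, ?_⟩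
  rw [← smul_mul_assoc, ← hc, ← Sys.coe_gl, ← Units.val_mul, ← Units.val_mul, inv_mul_cancel_right]

theorem mem_N_left {A B : GL (K k) F} (h : sp.bd (A, B) ∈ M) : A ∈ sp.T.N :=
  sp.mem_N_right hk h2 hNO hM hP (sp.bd_swap_mem (sp.gl_u_mem hk h2 hNO) h)

/-- An element of `M` commuting with `P a` normalises the system. -/
theorem mem_N_of_bd_mem {A B : GL (K k) F} (h : sp.bd (A, B) ∈ M) : sp.bd (A, B) ∈ S.N := by
  have hA := sp.mem_N_left hk h2 hNO hM hP h
  have hB := sp.mem_N_right hk h2 hNO hM hP h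
  have hC : A⁻¹ * B ∈ sp.T.N := mul_mem (inv_mem hA) hB
  have hu := sp.gl_u_mem hk h2 hNO
  have hfix : ∀ z, sp.T.sP (A⁻¹ * B) z = z := by
    refine eq_id_of_commutes sp.T.quad hk (sp.T.act_add hC) (sp.T.act_q h2 hC) fun v w hv hw hvw => ?_
    obtain ⟨n, hn, hr⟩ := sp.T.exists_pair_mem_D hk h2 hv hw
    obtain ⟨n', hn', hr'⟩ := sp.T.exists_pair_mem_D hk h2 (v := sp.T.sP A v) (w := sp.T.sP A w)
      ((sp.T.act_q h2 hA v).trans hv) ((sp.T.act_q h2 hA w).trans hw)
    have hnN := sp.T.D_le_N hn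
    have hn'N := sp.T.D_le_N hn'
    have hsA : ∀ z, sp.T.sP A (sp.T.sP n z) = sp.T.sP n' (sp.T.sP A z) := by
      intro z
      rw [hr, hr', sp.T.sP_tau h2 hA, sp.T.sP_tau h2 hA]
    -- the first component fixes all labels
    set x := n'⁻¹ * (A * n * A⁻¹) with hx
    have hxN : x ∈ sp.T.N := mul_mem (inv_mem hn'N) (mul_mem (mul_mem hA hnN) (inv_mem hA))
    have hxfix : ∀ z, sp.T.sP x z = z := by
      intro z
      rw [hx, (sp.T.act_mul (inv_mem hn'N) (mul_mem (mul_mem hA hnN) (inv_mem hA)) z).1,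
        (sp.T.act_mul (mul_mem hA hnN) (inv_mem hA) z).1, (sp.T.act_mul hA hnN _).1, hsA,
        ← (sp.T.act_mul (inv_mem hn'N) hn'N _).1, inv_mul_cancel, sp.T.act_one,
        ← (sp.T.act_mul hA (inv_mem hA) z).1, mul_inv_cancel, sp.T.act_one]
    obtain ⟨y, c, hc, hxy⟩ := sp.T.exists_of_fixed h2 hxN hxfix
    set x' := n'⁻¹ * (B * n * B⁻¹) with hx'
    have hxx : sp.bd (x, x') ∈ M := by
      have hnn : sp.bd (n, n) ∈ M := D_le_of_le hNO (sp.bd_diag_mem_D hn)
      have hnn' : sp.bd (n', n') ∈ M := D_le_of_le hNO (sp.bd_diag_mem_D hn')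
      have := mul_mem (inv_mem hnn') (mul_mem (mul_mem h hnn) (inv_mem h))
      rw [← map_inv, ← map_inv, ← map_mul, ← map_mul, ← map_mul] at this
      simpa [hx, hx'] using this
    have hx1 : sp.bd (x, 1) ∈ M := sp.bd_swap_mem hu (sp.bd_one_smul_gl_mem hk h2 hNO hc hxy)
    have hker : x' ∈ sp.kerGroup M := by
      rw [mem_kerGroup]
      have := mul_mem (inv_mem hx1) hxx
      rw [← map_inv, ← map_mul] at this
      simpa using this
    have hx'N : x' ∈ sp.T.N := mul_mem (inv_mem hn'N) (mul_mem (mul_mem hB hnN) (inv_mem hB))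
    have hx'fix := sp.sP_eq_self hk h2 hNO hM hP hker hx'N
    refine map_plane sp.T.quad (sp.T.act_add hC) hvw fun z => ?_
    show sp.T.tau v (sp.T.tau w (sp.T.sP (A⁻¹ * B) z)) = sp.T.sP (A⁻¹ * B) (sp.T.tau v (sp.T.tau w z))
    rw [← hr, ← hr]
    have hsB : sp.T.sP B (sp.T.sP n z) = sp.T.sP n' (sp.T.sP B z) := by
      have e : n' * (x' * B) = B * n := by rw [hx']; group
      rw [← (sp.T.act_mul hB hnN z).1, ← e, (sp.T.act_mul hn'N (mul_mem hx'N hB) z).1,
        (sp.T.act_mul hx'N hB z).1, hx'fix]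
    rw [(sp.T.act_mul (inv_mem hA) hB (sp.T.sP n z)).1, hsB]
    have e : sp.T.sP B z = sp.T.sP A (sp.T.sP (A⁻¹ * B) z) := by
      rw [← (sp.T.act_mul hA hC z).1, mul_inv_cancel_left]
    rw [e, ← hsA, ← (sp.T.act_mul (inv_mem hA) hA _).1, inv_mul_cancel, sp.T.act_one]
  obtain ⟨y, c, hc, hy⟩ := sp.T.exists_of_fixed h2 hC hfix
  have e : sp.bd (A, B) = sp.bd (A, A) * sp.bd (1, A⁻¹ * B) := by
    rw [← map_mul, Prod.mk_mul_mk, mul_one, mul_inv_cancel_left]
  rw [e]
  exact mul_mem (sp.bd_diag_mem_N hA) (sp.bd_one_smul_gl_mem_N h2 hc hy)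

end Split

namespace Sys

variable (S : Sys (k + 1) ι F) {M : Subgroup (GL ι F)}

/-- The local property at anisotropic planes implies the one at singular labels. -/
theorem localSing_of_planeLocal [Finite F] (hk : 3 ≤ k) (h2 : (2 : F) ≠ 0)
    (hNO : S.N ⊓ ⁅isom S.f, isom S.f⁆ ≤ M) (hM : M ≤ isom S.f) (hP : S.PlaneLocal M) : S.LocalSing M := by
  intro a ha hqa g hg c hc
  obtain ⟨u, hqu, hau⟩ := S.exists_singular_partner ha hqa
  obtain ⟨sp⟩ := exists_split h2 S hqa hqu hau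
  have main : ∀ g ∈ M, (g : Matrix ι ι F) * S.P a = S.P a * (g : Matrix ι ι F) → g ∈ S.N := by
    intro g hg hc
    obtain ⟨A, B, rfl⟩ := sp.exists_bd h2 hc
    exact sp.mem_N_of_bd_mem hk h2 hNO hM hP hg
  have hgi := hM hg
  have hc2 : c * c = 1 := S.smul_sq_eq_one (g := g * S.gl a) (h := S.gl a * g)
    (mul_mem hgi (S.gl_mem_isom a)) (mul_mem (S.gl_mem_isom a) hgi)
    (by rw [Units.val_mul, Units.val_mul, coe_gl]; exact hc)
  rcases mul_self_eq_one_iff.1 hc2 with rfl | rfl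
  · exact main g hg (by rw [hc, one_smul])
  have h := main (g * S.gl u) (mul_mem hg (sp.gl_u_mem hk h2 hNO)) (by
    rw [Units.val_mul, coe_gl, mul_assoc, S.comm u a, S.sk, hau, sgn_one, mul_smul_comm, ← mul_assoc, hc,
      smul_mul_assoc, smul_smul, neg_one_mul, neg_neg, one_smul, mul_assoc])
  simpa using mul_mem h (inv_mem (S.gl_mem_N u))

end Sys

end CfsgLib.Geometric.OrthType
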