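import Cfsg.Agent.Lib.Geometric.OrthType.Proper
import Cfsg.Agent.Lib.Geometric.OrthType.LocalDef
import Cfsg.Agent.Lib.Geometric.OrthType.OfData
import Cfsg.Agent.Lib.Geometric.OrthType.SingStep

/-!
The normaliser of a system of plus type is maximal in the commutator subgroup of the isometry group,
given the local condition at pairs of anticommuting non-singular labels.
-/

set_option autoImplicit false

namespace CfsgLib.Geometric.OrthType

open Cfsg.Geo CfsgLib.Geometric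

variable {F : Type*} [Field F] [Fintype F] {ι : Type} [Fintype ι] [DecidableEq ι]

/-- The local condition at pairs of labels in every proper overgroup gives the dichotomy. -/
theorem le_N_or_commutator_le {k : ℕ} (hk : 3 ≤ k) (h2 : (2 : F) ≠ 0) (S : Sys (k + 1) ι F)
    {M : Subgroup (GL ι F)} (hNO : S.N ⊓ ⁅isom S.f, isom S.f⁆ ≤ M) (hM : M ≤ isom S.f)
    (hP : ¬ ⁅isom S.f, isom S.f⁆ ≤ M → S.PlaneLocal M) : M ≤ S.N ∨ ⁅isom S.f, isom S.f⁆ ≤ M := by
  by_cases hbig : ⁅isom S.f, isom S.f⁆ ≤ M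
  · exact Or.inr hbig
  have hD : S.D ≤ M := (le_inf S.D_le_N (Subgroup.commutator_mono S.N_le S.N_le)).trans hNO
  exact Or.inl (S.le_N_of_D_le (by omega) h2 hD hM (S.localSing_of_planeLocal hk h2 hNO hM (hP hbig)))

/-- Maximality for a subgroup with the data of plus type in dimension at least thirteen. -/
theorem isMaximalIn_of_planeLocal {n : ℕ} (hn : 13 ≤ n) {Q : (Fin n → F) → F}
    (hQ : IsNondegenerateQuadraticForm Q) (hplus : IsPlusTypeOn Q ⊤) (h2 : (2 : F) ≠ 0) {k : ℕ}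
    {R : Subgroup (GL (Fin n) F)} (hR : IsSymplecticTypeGroup 2 R)
    (hirr : ActsAbsolutelyIrreducibly (matrixSet R)) (hRD : R ≤ Cfsg.isometryGroup F Q)
    (hcard : Nat.card R = 2 ^ (1 + 2 * k)) (hZ : Nat.card (Subgroup.center R) = 2) (hpt : IsOfPlusType k R)
    (hP : ∀ j, 3 ≤ j → ∀ (S : Sys (j + 1) (Fin n) F) (M : Subgroup (GL (Fin n) F)),
      S.N ⊓ ⁅isom S.f, isom S.f⁆ ≤ M → M ≤ isom S.f → ¬ ⁅isom S.f, isom S.f⁆ ≤ M → S.PlaneLocal M) :
    IsMaximalIn (omegaGL Q) (subgroupNormalizer R ⊓ omegaGL Q) := by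
  obtain ⟨S, hf, hN⟩ := exists_sys (by omega) h2 hQ hR hirr hRD hcard hZ hpt
  have hcard' : n = 2 ^ k := by simpa using S.card
  have hk : 4 ≤ k := by
    by_contra hlt
    have := Nat.pow_le_pow_right (show 0 < 2 by norm_num) (show k ≤ 3 by omega)
    omega
  obtain ⟨j, rfl⟩ : ∃ j, k = j + 1 := ⟨k - 1, by omega⟩
  have hle : omegaGL Q ≤ Cfsg.isometryGroup F Q := Subgroup.map_subtype_le _
  rw [show subgroupNormalizer R ⊓ omegaGL Q = S.N ⊓ omegaGL Q by rw [← hN, inf_assoc, inf_eq_right.2 hle]]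
  have hΩ : omegaGL Q = ⁅isom S.f, isom S.f⁆ := by rw [omegaGL_eq_commutator h2 hQ, hf]
  refine ⟨lt_of_le_of_ne inf_le_right fun e =>
    S.not_omega_le_N h2 hQ hf hplus (by simp; omega) (e.ge.trans inf_le_left), fun M h1 h2' => ?_⟩
  have hM : M ≤ isom S.f := h2'.trans (hΩ.trans_le (Subgroup.commutator_le_self _))
  rcases le_N_or_commutator_le (by omega) h2 S (hΩ ▸ h1) hM (hP j (by omega) S M (hΩ ▸ h1) hM) with h | h
  · exact Or.inl (le_antisymm (le_inf h h2') h1)
  · exact Or.inr (le_antisymm h2' (hΩ.trans_le h))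

end CfsgLib.Geometric.OrthType
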