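import Cfsg.Agent.Lib.Geometric.OrthType.Action

/-!
Products of two transvections of the labels in the normaliser of a system.
-/

set_option autoImplicit false
set_option linter.unusedSectionVars false

namespace CfsgLib.Geometric.OrthType

open CfsgLib.Geometric Matrix
open CfsgLib.Geometric.SympType (Quad zmod2_cases vec_add_self)
open CfsgLib.Geometric.PauliMax (sgn sgn_zero sgn_one sgn_cases sgn_sq)

variable {k : ℕ} {ι : Type} [Fintype ι] [DecidableEq ι] {F : Type*} [Field F]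

local notation "𝕄" => Matrix ι ι F

namespace Sys

variable (S : Sys k ι F)

/-- The transvection of the labels at `v`. -/
def tau (v z : L k) : L k := z + S.B z v • v

theorem sq_of_one {v : L k} (hv : S.q v = 1) {ε : F} (hε : ε * ε = 1) :
    (ε • S.P v) * (ε • S.P v) = -1 := by
  rw [smul_mul_assoc, mul_smul_comm, smul_smul, hε, one_smul, S.sq, hv, sgn_one, neg_one_smul]

theorem one_add_mul {v : L k} (hv : S.q v = 1) {ε : F} (hε : ε * ε = 1) :
    (1 + ε • S.P v) * (1 - ε • S.P v) = (2 : F) • (1 : 𝕄) ∧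
      (1 - ε • S.P v) * (1 + ε • S.P v) = (2 : F) • (1 : 𝕄) := by
  have h := S.sq_of_one hv hε
  constructor <;>
  · simp only [add_mul, sub_mul, mul_add, mul_sub, one_mul, mul_one, h, two_smul]
    abel

/-- The product of the two elements `1 + ε P v` over two. -/
def pairGL (h2 : (2 : F) ≠ 0) {v w : L k} (hv : S.q v = 1) (hw : S.q w = 1) {ε η : F}
    (hε : ε * ε = 1) (hη : η * η = 1) : GL ι F where
  val := (2 : F)⁻¹ • ((1 + ε • S.P v) * (1 + η • S.P w))
  inv := (2 : F)⁻¹ • ((1 - η • S.P w) * (1 - ε • S.P v))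
  val_inv := by
    rw [smul_mul_assoc, mul_smul_comm, smul_smul, mul_assoc (1 + ε • S.P v), ← mul_assoc (1 + η • S.P w),
      (S.one_add_mul hw hη).1, smul_mul_assoc, one_mul, mul_smul_comm, (S.one_add_mul hv hε).1, smul_smul,
      smul_smul, show (2 : F)⁻¹ * (2 : F)⁻¹ * 2 * 2 = 1 by field_simp, one_smul]
  inv_val := by
    rw [smul_mul_assoc, mul_smul_comm, smul_smul, mul_assoc (1 - η • S.P w), ← mul_assoc (1 - ε • S.P v),
      (S.one_add_mul hv hε).2, smul_mul_assoc, one_mul, mul_smul_comm, (S.one_add_mul hw hη).2, smul_smul,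
      smul_smul, show (2 : F)⁻¹ * (2 : F)⁻¹ * 2 * 2 = 1 by field_simp, one_smul]

theorem coe_pairGL (h2 : (2 : F) ≠ 0) {v w : L k} (hv : S.q v = 1) (hw : S.q w = 1) {ε η : F}
    (hε : ε * ε = 1) (hη : η * η = 1) :
    ((S.pairGL h2 hv hw hε hη : GL ι F) : 𝕄) = (2 : F)⁻¹ • ((1 + ε • S.P v) * (1 + η • S.P w)) := rfl

theorem f_half {v : L k} (hv : S.q v = 1) {ε : F} (hε : ε * ε = 1) (x y : ι → F) :
    S.f ((1 + ε • S.P v) *ᵥ x) ((1 + ε • S.P v) *ᵥ y) = 2 * S.f x y := by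
  have hs : S.f (S.P v *ᵥ x) y = - S.f x (S.P v *ᵥ y) := by
    rw [← S.isom_P v (S.P v *ᵥ x) y, mulVec_mulVec, S.sq, hv, sgn_one, smul_mulVec, one_mulVec,
      S.bil.smul_left, neg_one_mul]
  simp only [add_mulVec, one_mulVec, smul_mulVec, S.bil.add_left, S.bil.add_right,
    S.bil.smul_left, S.bil.smul_right, S.isom_P, hs]
  linear_combination (S.f x y) * hε

theorem pairGL_mem_isom (h2 : (2 : F) ≠ 0) {v w : L k} (hv : S.q v = 1) (hw : S.q w = 1) {ε η : F}
    (hε : ε * ε = 1) (hη : η * η = 1) : S.pairGL h2 hv hw hε hη ∈ isom S.f := by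
  intro x y
  show S.f (((S.pairGL h2 hv hw hε hη : GL ι F) : 𝕄) *ᵥ x) (((S.pairGL h2 hv hw hε hη : GL ι F) : 𝕄) *ᵥ y) = S.f x y
  rw [coe_pairGL, smul_mulVec, smul_mulVec, ← mulVec_mulVec, ← mulVec_mulVec, S.bil.smul_left,
    S.bil.smul_right, S.f_half hv hε, S.f_half hw hη]
  field_simp

theorem half_conj {v : L k} (hv : S.q v = 1) {ε : F} (hε : ε * ε = 1) (z : L k) :
    ∃ c : F, (1 + ε • S.P v) * S.P z = c • (S.P (S.tau v z) * (1 + ε • S.P v)) := by
  rcases zmod2_cases (S.B z v) with h | h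
  · refine ⟨1, ?_⟩
    rw [tau, h, zero_smul, add_zero, one_smul, add_mul, mul_add, one_mul, mul_one, smul_mul_assoc,
      mul_smul_comm, S.comm v z, S.sk, h, sgn_zero, one_smul]
  · obtain ⟨c, hc0, hc⟩ := S.P_add_coeff v z
    refine ⟨ε * c⁻¹, ?_⟩
    have ha : S.P v * S.P z = -(S.P z * S.P v) := by rw [S.comm v z, S.sk, h, sgn_one, neg_one_smul]
    have e : S.P v * S.P z * S.P v = S.P z := by
      rw [ha, neg_mul, mul_assoc, S.sq, hv, sgn_one, neg_one_smul, mul_neg, mul_one, neg_neg]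
    rw [tau, h, one_smul, add_comm z v, hc, smul_mul_assoc, smul_smul, mul_assoc ε, inv_mul_cancel₀ hc0,
      mul_one, add_mul, mul_add, one_mul, mul_one, smul_mul_assoc, mul_smul_comm, e, smul_add, smul_smul,
      hε, one_smul, add_comm]

theorem pair_conj (h2 : (2 : F) ≠ 0) {v w : L k} (hv : S.q v = 1) (hw : S.q w = 1) {ε η : F}
    (hε : ε * ε = 1) (hη : η * η = 1) (z : L k) :
    ∃ c : F, ((S.pairGL h2 hv hw hε hη : GL ι F) : 𝕄) * S.P z =
      c • (S.P (S.tau v (S.tau w z)) * ((S.pairGL h2 hv hw hε hη : GL ι F) : 𝕄)) := by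
  obtain ⟨c, hc⟩ := S.half_conj hw hη z
  obtain ⟨d, hd⟩ := S.half_conj hv hε (S.tau w z)
  refine ⟨c * d, ?_⟩
  rw [coe_pairGL, smul_mul_assoc, mul_assoc, hc, mul_smul_comm, ← mul_assoc, hd, smul_mul_assoc,
    mul_smul_comm, smul_smul, smul_smul, smul_smul, mul_assoc]
  congr 1
  · ring
  · rw [mul_assoc]

theorem pairGL_mem_N (h2 : (2 : F) ≠ 0) {v w : L k} (hv : S.q v = 1) (hw : S.q w = 1) {ε η : F}
    (hε : ε * ε = 1) (hη : η * η = 1) : S.pairGL h2 hv hw hε hη ∈ S.N :=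
  ⟨S.pairGL_mem_isom h2 hv hw hε hη, fun z => ⟨_, S.pair_conj h2 hv hw hε hη z⟩⟩

theorem sP_pairGL (h2 : (2 : F) ≠ 0) {v w : L k} (hv : S.q v = 1) (hw : S.q w = 1) {ε η : F}
    (hε : ε * ε = 1) (hη : η * η = 1) (z : L k) :
    S.sP (S.pairGL h2 hv hw hε hη) z = S.tau v (S.tau w z) :=
  (S.act_unique (S.pairGL_mem_N h2 hv hw hε hη) (S.pair_conj h2 hv hw hε hη z).choose_spec).1

/-- Products of two transvections at anisotropic labels are induced by the normaliser. -/
theorem exists_pair (h2 : (2 : F) ≠ 0) {v w : L k} (hv : S.q v = 1) (hw : S.q w = 1) :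
    ∃ n ∈ S.N, ∀ z, S.sP n z = z + S.B z w • w + S.B (z + S.B z w • w) v • v :=
  ⟨_, S.pairGL_mem_N h2 hv hw (one_mul 1) (one_mul 1), fun z => S.sP_pairGL h2 hv hw _ _ z⟩

/-- If an element of the normaliser squaring to a sign exchanges two orthogonal anisotropic labels,
some product of their transvections commutes with it. -/
theorem exists_pair_comm (h2 : (2 : F) ≠ 0) {h : GL ι F} (hh : h ∈ S.N) {c : F}
    (hsq : (h : 𝕄) * (h : 𝕄) = c • 1) {v : L k} (hv : S.q v = 1) (hB : S.B v (S.sP h v) = 0) :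
    ∃ n ∈ S.N, (h : 𝕄) * (n : 𝕄) = (n : 𝕄) * (h : 𝕄) ∧
      ∀ z, S.sP n z = z + S.B z v • v + S.B z (S.sP h v) • S.sP h v := by
  set w := S.sP h v with hwdef
  have hw : S.q w = 1 := by rw [hwdef, S.act_q h2 hh, hv]
  have hε := S.cP_sq hh v
  set ε := S.cP h v with hεdef
  have hsp : S.sP h w = v ∧ S.cP h w = ε := by
    have hhh : ((h * h : GL ι F) : 𝕄) = c • ((1 : GL ι F) : 𝕄) := by rw [Units.val_mul, hsq, Units.val_one]
    have h1 := S.act_mul hh hh v
    have h3 := S.act_congr (mul_mem hh hh) (one_mem _) hhh v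
    refine ⟨?_, ?_⟩
    · rw [← h1.1, h3.1, S.act_one]
    · have h4 : S.cP (1 : GL ι F) v = 1 := (S.act_unique (one_mem _) (w := v) (by simp)).2
      rw [h3.2, h4, ← hwdef, ← hεdef] at h1
      calc S.cP h w = ε * ε * S.cP h w := by rw [hε, one_mul]
        _ = ε := by rw [mul_assoc, ← h1.2, mul_one]
  refine ⟨_, S.pairGL_mem_N h2 hv hw (one_mul 1) hε, ?_, fun z => ?_⟩
  · have e1 : (h : 𝕄) * (1 + (1 : F) • S.P v) = (1 + ε • S.P w) * (h : 𝕄) := by
      rw [one_smul, mul_add, add_mul, mul_one, one_mul, S.act_spec hh v, ← hwdef, ← hεdef, smul_mul_assoc]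
    have e2 : (h : 𝕄) * (1 + ε • S.P w) = (1 + (1 : F) • S.P v) * (h : 𝕄) := by
      rw [one_smul, mul_add, add_mul, mul_one, one_mul, mul_smul_comm, S.act_spec hh w, hsp.1, hsp.2,
        smul_smul, hε, one_smul]
    have hcomm : S.P v * S.P w = S.P w * S.P v := by rw [S.comm, hB, sgn_zero, one_smul]
    have e3 : (1 + ε • S.P w) * (1 + (1 : F) • S.P v) = (1 + (1 : F) • S.P v) * (1 + ε • S.P w) := by
      simp only [one_smul, add_mul, mul_add, one_mul, mul_one, smul_mul_assoc, mul_smul_comm, hcomm, smul_add]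
      abel
    rw [coe_pairGL, mul_smul_comm, smul_mul_assoc, ← mul_assoc, e1, mul_assoc, e2, ← mul_assoc, e3]
  · rw [S.sP_pairGL h2 hv hw _ hε, tau, tau]
    rw [map_add, map_smul, LinearMap.add_apply, LinearMap.smul_apply, S.sk w v, hB, smul_zero, add_zero,
      add_right_comm]

end Sys

end CfsgLib.Geometric.OrthType
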