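import Cfsg.Agent.Lib.Geometric.OrthType.DPairs

/-!
The commutator subgroup of the normaliser is transitive on the ordered anisotropic planes of labels, so
an overgroup containing the full centraliser of one of them contains all of them.
-/

set_option autoImplicit false
set_option linter.unusedSectionVars false

namespace CfsgLib.Geometric.OrthType

open Module CfsgLib.Geometric
open CfsgLib.Geometric.SympType (Quad zmod2_cases)

variable {k : ℕ} {ι : Type} [Fintype ι] [DecidableEq ι] {F : Type*} [Field F]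

local notation "𝕄" => Matrix ι ι F

namespace Sys

variable (S : Sys k ι F)

/-- The orthogonal of at most three labels meets both values of the form on every coset. -/
private theorem exists_perp_three (hk : 4 ≤ k) (v₁ v₂ v₃ d : L k) (e : ZMod 2) :
    ∃ w, S.B v₁ w = 0 ∧ S.B v₂ w = 0 ∧ S.B v₃ w = 0 ∧ S.q (d + w) = e := by
  let Q := S.quad
  obtain ⟨w, hw, he⟩ := Q.exists_coset
    (W := Q.perp (Submodule.span (ZMod 2) ((({v₁, v₂, v₃} : Finset (L k)) : Set (L k)))))
    (by have := Q.le_finrank_perp_span ({v₁, v₂, v₃} : Finset (L k))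
        have := Finset.card_le_three (a := v₁) (b := v₂) (c := v₃); omega) d e
  exact ⟨w, hw v₁ (Submodule.subset_span (by simp)), hw v₂ (Submodule.subset_span (by simp)),
    hw v₃ (Submodule.subset_span (by simp)), he⟩

/-- The stabiliser of `b` moves a partner `x` of `b` to one with product one with it. -/
private theorem exists_step (hk : 4 ≤ k) (h2 : (2 : F) ≠ 0) {b x y : L k} (hx : S.q x = 1) (hy : S.q y = 1)
    (hbx : S.B b x = 1) (hby : S.B b y = 1) (hxy : S.B x y = 1) :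
    ∃ n ∈ S.D, S.sP n b = b ∧ S.sP n x = y := by
  obtain ⟨z, hzb, hzx, -, hz⟩ := S.exists_perp_three hk b x x 0 1
  rw [zero_add] at hz
  have hs : S.q (x + y) = 1 := by rw [S.q_add, hx, hy, hxy]; decide
  obtain ⟨n, hn, h⟩ := S.exists_pair_mem_D (by omega) h2 hs hz
  refine ⟨n, hn, ?_, ?_⟩
  · rw [h]
    simp [tau, hzb, hbx, hby, CharTwo.add_self_eq_zero]
  · rw [h]
    simp only [tau, map_add, hzx, S.B_self, hxy, zero_smul, add_zero, zero_add, one_smul]
    rw [← add_assoc, two_torsion, zero_add]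

/-- The stabiliser of `b` is transitive on the partners of `b`. -/
private theorem exists_fix (hk : 4 ≤ k) (h2 : (2 : F) ≠ 0) {b x y : L k} (hb : S.q b = 1) (hx : S.q x = 1)
    (hy : S.q y = 1) (hbx : S.B b x = 1) (hby : S.B b y = 1) :
    ∃ n ∈ S.D, S.sP n b = b ∧ S.sP n x = y := by
  rcases zmod2_cases (S.B x y) with h0 | h1
  · have hyb : S.B y b = 1 := (S.sk y b).trans hby
    have hxb : S.B x b = 1 := (S.sk x b).trans hbx
    have e1 : S.q (b + x) = 1 := by rw [S.q_add, hb, hx, hbx]; decide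
    have e2 : S.B b (b + x) = 1 := by rw [map_add, S.B_self, hbx, zero_add]
    have e3 : S.B x (b + x) = 1 := by rw [map_add, S.B_self, hxb, add_zero]
    have e4 : S.B (b + x) y = 1 := by rw [map_add, LinearMap.add_apply, hby, h0, add_zero]
    obtain ⟨n, hn, hnb, hnx⟩ := S.exists_step hk h2 hx e1 hbx e2 e3
    obtain ⟨m, hm, hmb, hmx⟩ := S.exists_step hk h2 e1 hy e2 hby e4
    refine ⟨m * n, mul_mem hm hn, ?_, ?_⟩
    · rw [(S.act_mul (S.D_le_N hm) (S.D_le_N hn) b).1, hnb, hmb]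
    · rw [(S.act_mul (S.D_le_N hm) (S.D_le_N hn) x).1, hnx, hmx]
  · exact S.exists_step hk h2 hx hy hbx hby h1

/-- The commutator subgroup is transitive on the ordered anisotropic planes. -/
theorem exists_plane_map (hk : 4 ≤ k) (h2 : (2 : F) ≠ 0) {b c b' c' : L k} (hb : S.q b = 1) (hc : S.q c = 1)
    (hbc : S.B b c = 1) (hb' : S.q b' = 1) (hc' : S.q c' = 1) (hbc' : S.B b' c' = 1) :
    ∃ n ∈ S.D, S.sP n b = b' ∧ S.sP n c = c' := by
  have h0 : ∀ v, S.q v = 1 → v ≠ 0 := fun v hv e => by rw [e, S.q_zero] at hv; exact zero_ne_one hv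
  obtain ⟨n, hn, hnb⟩ := S.transitive (by omega) h2 (h0 b hb) (h0 b' hb') (hb.trans hb'.symm)
  have hx : S.q (S.sP n c) = 1 := by rw [S.act_q h2 (S.D_le_N hn), hc]
  have hbx : S.B b' (S.sP n c) = 1 := by rw [← hnb, S.act_B h2 (S.D_le_N hn), hbc]
  obtain ⟨m, hm, hmb, hmc⟩ := S.exists_fix hk h2 hb' hx hc' hbx hbc'
  refine ⟨m * n, mul_mem hm hn, ?_, ?_⟩
  · rw [(S.act_mul (S.D_le_N hm) (S.D_le_N hn) b).1, hnb, hmb]
  · rw [(S.act_mul (S.D_le_N hm) (S.D_le_N hn) c).1, hmc]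

/-- An anisotropic plane orthogonal to a given one. -/
theorem exists_plane_perp (hk : 4 ≤ k) {b c : L k} (hbc : S.B b c = 1) :
    ∃ b' c', S.q b' = 1 ∧ S.q c' = 1 ∧ S.B b' c' = 1 ∧
      S.B b b' = 0 ∧ S.B b c' = 0 ∧ S.B c b' = 0 ∧ S.B c c' = 0 := by
  obtain ⟨b', hbb, hcb, -, hb'⟩ := S.exists_perp_three hk b c c 0 1
  rw [zero_add] at hb'
  obtain ⟨e, he⟩ : ∃ e, S.B b' e = 1 := by
    by_contra h
    push Not at h
    rw [S.nondeg b' fun w => (zmod2_cases _).resolve_right (h w), S.q_zero] at hb'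
    exact zero_ne_one hb'
  set d := e + S.B b e • c + S.B c e • b with hd
  obtain ⟨w, hw1, hw2, hw3, hw⟩ := S.exists_perp_three hk b c b' d 1
  refine ⟨b', d + w, hb', hw, ?_, hbb, ?_, hcb, ?_⟩
  · simp [hd, map_add, he, hw3, S.sk b' c, hcb, S.sk b' b, hbb]
  · simp [hd, map_add, hw1, hbc, S.B_self, CharTwo.add_self_eq_zero]
  · simp [hd, map_add, hw2, S.sk c b, hbc, S.B_self, CharTwo.add_self_eq_zero]

variable {M : Subgroup (GL ι F)}

/-- If an overgroup holds the whole centraliser of one anisotropic plane, it holds that of each. -/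
theorem full_of_full (hk : 4 ≤ k) (h2 : (2 : F) ≠ 0) (hD : S.D ≤ M) {b c b' c' : L k} (hb : S.q b = 1)
    (hc : S.q c = 1) (hbc : S.B b c = 1) (hb' : S.q b' = 1) (hc' : S.q c' = 1) (hbc' : S.B b' c' = 1)
    (hfull : ∀ g ∈ isom S.f, (g : 𝕄) * S.P b = S.P b * (g : 𝕄) → (g : 𝕄) * S.P c = S.P c * (g : 𝕄) →
      g ∈ M) :
    ∀ g ∈ isom S.f, (g : 𝕄) * S.P b' = S.P b' * (g : 𝕄) → (g : 𝕄) * S.P c' = S.P c' * (g : 𝕄) →
      g ∈ M := by
  intro g hg hgb hgc
  obtain ⟨n, hn, hnb, hnc⟩ := S.exists_plane_map hk h2 hb hc hbc hb' hc' hbc'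
  have key : ∀ {v v' : L k}, S.sP n v = v' → (g : 𝕄) * S.P v' = S.P v' * (g : 𝕄) →
      ((n⁻¹ * g * n : GL ι F) : 𝕄) * S.P v = S.P v * ((n⁻¹ * g * n : GL ι F) : 𝕄) := by
    intro v v' hv h
    have e := S.act_spec (S.D_le_N hn) v
    rw [hv] at e
    apply (Units.mul_right_inj n).1
    simp only [Units.val_mul, ← mul_assoc, Units.mul_inv, one_mul]
    rw [mul_assoc (g : 𝕄), e]
    simp only [smul_mul_assoc, mul_smul_comm, mul_assoc, Units.mul_inv_cancel_left]
    rw [← mul_assoc (g : 𝕄), h, mul_assoc]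
  have hnI : n ∈ isom S.f := S.N_le (S.D_le_N hn)
  have h := hfull (n⁻¹ * g * n) (mul_mem (mul_mem (inv_mem hnI) hg) hnI) (key hnb hgb) (key hnc hgc)
  have h' := mul_mem (mul_mem (hD hn) h) (inv_mem (hD hn))
  simpa [mul_assoc] using h'

/-- Some element of the commutator subgroup moves a given anisotropic plane to an orthogonal one. -/
theorem exists_plane_moved (hk : 4 ≤ k) (h2 : (2 : F) ≠ 0) {b c : L k} (hb : S.q b = 1) (hc : S.q c = 1)
    (hbc : S.B b c = 1) :
    ∃ n ∈ S.D, S.B b (S.sP n b) = 0 ∧ S.B c (S.sP n b) = 0 ∧ S.sP n b ≠ 0 := by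
  obtain ⟨b', c', hb', hc', hbc', h1, -, h3, -⟩ := S.exists_plane_perp hk hbc
  obtain ⟨n, hn, hnb, -⟩ := S.exists_plane_map hk h2 hb hc hbc hb' hc' hbc'
  exact ⟨n, hn, by rw [hnb, h1], by rw [hnb, h3],
    fun e => by rw [hnb] at e; rw [e, S.q_zero] at hb'; exact zero_ne_one hb'⟩

end Sys

end CfsgLib.Geometric.OrthType
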