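import Cfsg.Agent.Lib.Geometric.OrthType.EllTensor
import Cfsg.Agent.Lib.Geometric.OrthType.EllSplit
import Cfsg.Agent.Lib.Geometric.OrthType.PlaneMove
import Cfsg.Agent.Lib.Geometric.Orth.SympTensorMax

/-!
An overgroup containing the centraliser of an anisotropic plane of labels contains the whole commutator
subgroup of the isometry group: it contains the stabiliser of the tensor decomposition along the plane,
and the normaliser of the system moves the plane.
-/

set_option autoImplicit false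
set_option linter.unusedSectionVars false
set_option linter.style.haveILetI false

namespace CfsgLib.Geometric.OrthType

open Matrix QuadraticMap Cfsg.Geo CfsgLib.Geometric
open CfsgLib.Geometric.SympType (zmod2_cases)
open CfsgLib.Geometric.PauliMax (sgn sgn_zero sgn_one)

variable {k : ℕ} {ι : Type} [Fintype ι] [DecidableEq ι] {F : Type*} [Field F]

local notation "𝕄" => Matrix ι ι F

namespace Sys

/-- A non-singular label orthogonal to two orthogonal anisotropic planes. -/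
theorem exists_nonsing_perp_planes (S : Sys (k + 1) ι F) (hk : 3 ≤ k) {b c b' c' : L (k + 1)}
    (hbc : S.B b c = 1) (hbc' : S.B b' c' = 1) (h1 : S.B b b' = 0) (h2 : S.B b c' = 0)
    (h3 : S.B c b' = 0) (h4 : S.B c c' = 0) :
    ∃ e, S.q e = 1 ∧ S.B b e = 0 ∧ S.B c e = 0 ∧ S.B b' e = 0 ∧ S.B c' e = 0 := by
  classical
  let Q := S.quad
  set s : Finset (L (k + 1)) := {b, c, b', c'} with hs
  set W := Q.perp (Submodule.span (ZMod 2) (s : Set (L (k + 1)))) with hW
  have hcard : s.card ≤ 4 := Finset.card_le_four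
  have hrk := Q.le_finrank_perp_span s
  obtain ⟨x, hx, hx0, hqx⟩ := Q.exists_singular (W := W) (by rw [hW]; omega)
  have hmem : ∀ y ∈ s, ∀ v ∈ W, S.B y v = 0 := fun y hy v hv => hv y (Submodule.subset_span hy)
  have hns : x ∉ Submodule.span (ZMod 2) (s : Set (L (k + 1))) := by
    intro h
    simp only [hs, Finset.coe_insert, Finset.coe_singleton, Submodule.mem_span_insert,
      Submodule.mem_span_singleton] at h
    obtain ⟨a₁, z₁, ⟨a₂, z₂, ⟨a₃, z₃, ⟨a₄, rfl⟩, rfl⟩, rfl⟩, rfl⟩ := h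
    have eb := hmem b (by simp [hs]) _ hx
    have ec := hmem c (by simp [hs]) _ hx
    have eb' := hmem b' (by simp [hs]) _ hx
    have ec' := hmem c' (by simp [hs]) _ hx
    simp only [map_add, map_smul, S.B_self, hbc, hbc', h1, h2, h3, h4, S.sk c b, S.sk c' b', S.sk b' b,
      S.sk b' c, S.sk c' b, S.sk c' c, add_zero, zero_add, smul_eq_mul, mul_one, mul_zero] at eb ec eb' ec'
    rw [eb, ec, eb', ec', zero_smul, zero_smul, zero_smul, zero_smul, add_zero, add_zero, add_zero] at hx0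
    exact hx0 rfl
  obtain ⟨y, hy, hxy⟩ : ∃ y ∈ W, S.B y x = 1 := by
    by_contra hcon
    push Not at hcon
    refine hns ?_
    rw [← Q.perp_perp (Submodule.span (ZMod 2) (s : Set (L (k + 1))))]
    exact fun y hy => (zmod2_cases _).resolve_right (hcon y hy)
  have hperp : ∀ e ∈ W, S.B b e = 0 ∧ S.B c e = 0 ∧ S.B b' e = 0 ∧ S.B c' e = 0 := fun e he =>
    ⟨hmem b (by simp [hs]) e he, hmem c (by simp [hs]) e he, hmem b' (by simp [hs]) e he,
      hmem c' (by simp [hs]) e he⟩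
  rcases zmod2_cases (S.q y) with hqy | hqy
  · refine ⟨y + x, ?_, hperp _ (W.add_mem hy hx)⟩
    rw [S.q_add, hqy, show S.q x = 0 from hqx, hxy]; decide
  · exact ⟨y, hqy, hperp y hy⟩

theorem commute_conj {n g : GL ι F} {X Y : 𝕄} {r : F} (h : (n : 𝕄) * X = r • (Y * (n : 𝕄)))
    (hg : (g : 𝕄) * Y = Y * (g : 𝕄)) :
    ((n⁻¹ * g * n : GL ι F) : 𝕄) * X = X * ((n⁻¹ * g * n : GL ι F) : 𝕄) := by
  refine (Units.mul_right_inj n).1 ?_
  rw [Units.val_mul, Units.val_mul]
  calc (n : 𝕄) * (((n⁻¹ : GL ι F) : 𝕄) * (g : 𝕄) * (n : 𝕄) * X)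
      = (g : 𝕄) * ((n : 𝕄) * X) := by simp only [mul_assoc, Units.mul_inv_cancel_left]
    _ = r • (Y * ((g : 𝕄) * (n : 𝕄))) := by
        rw [h, mul_smul_comm, ← mul_assoc (g : 𝕄), hg, mul_assoc Y]
    _ = (n : 𝕄) * (X * (((n⁻¹ : GL ι F) : 𝕄) * (g : 𝕄) * (n : 𝕄))) := by
        rw [← mul_assoc (n : 𝕄) X, h, smul_mul_assoc]
        simp only [mul_assoc, Units.mul_inv_cancel_left]

end Sys

namespace EllSplit

open Tensor

variable {S : Sys (k + 1) ι F} {b c : L (k + 1)} (sp : EllSplit S b c)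

local notation "𝕂" => SympType.K k

/-- The whole isometric stabiliser of the tensor decomposition lies in a group containing the centralisers
of two orthogonal planes. -/
theorem tensor_inf_le [Finite F] (h2 : (2 : F) ≠ 0) (hk : 3 ≤ k) {b' c' : L (k + 1)}
    (hbc' : S.B b' c' = 1) (h1 : S.B b b' = 0) (h1' : S.B b c' = 0) (h3 : S.B c b' = 0)
    (h4 : S.B c c' = 0) {M : Subgroup (GL ι F)}
    (hfull : ∀ g ∈ isom S.f, (g : 𝕄) * S.P b = S.P b * (g : 𝕄) →
      (g : 𝕄) * S.P c = S.P c * (g : 𝕄) → g ∈ M)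
    (hfull' : ∀ g ∈ isom S.f, (g : 𝕄) * S.P b' = S.P b' * (g : 𝕄) →
      (g : 𝕄) * S.P c' = S.P c' * (g : 𝕄) → g ∈ M) :
    Cfsg.Geo.tensorProductSubgroup 2 (2 ^ k) sp.eT sp.PT ⊓ isom S.f ≤ M := by
  classical
  have := Fintype.ofFinite F
  have hT := sp.stensor h2
  rintro g ⟨hgT, hgI⟩
  obtain ⟨a, β, hab⟩ := (mem_iff sp.eT sp.PT g).mp hgT
  set μ := ((a : GL (Fin 2) F) : Matrix (Fin 2) (Fin 2) F).det with hμ
  have hμ0 : μ ≠ 0 := ((Matrix.isUnit_iff_isUnit_det _).mp a.isUnit).ne_zero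
  have ha : ∀ s t, detForm (ap a s) (ap a t) = μ * detForm s t := fun s t => by
    simp only [detForm, ap_def, Matrix.mulVec, dotProduct, Fin.sum_univ_two, hμ, Matrix.det_fin_two]
    ring
  have hβ : ∀ u v, sp.T.f (ap β u) (ap β v) = μ⁻¹ * sp.T.f u v := by
    intro u v
    have h := (mem_isom_iff.1 hgI) (pt sp.eT sp.PT ![1, 0] u) (pt sp.eT sp.PT ![0, 1] v)
    rw [hab, hab, ← S.polar_quadForm h2, ← S.polar_quadForm h2, hT.polar_pt, hT.polar_pt, ha] at h
    have hd : detForm (F := F) ![1, 0] ![0, 1] = 1 := by simp [detForm]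
    rw [hd, one_mul, one_mul, one_mul, mul_one] at h
    rw [← h, ← mul_assoc, inv_mul_cancel₀ hμ0, one_mul]
  obtain ⟨e, he, hbe, hce, hb'e, hc'e⟩ := S.exists_nonsing_perp_planes hk sp.B_bc hbc' h1 h1' h3 h4
  obtain ⟨v, rfl⟩ := sp.mem_range_of_perp hbe hce
  -- a similitude of the second factor in the algebra of `P e`
  obtain ⟨x, y, hxy⟩ : ∃ x y : F, x * x + y * y = μ⁻¹ := by
    obtain ⟨x, y, h⟩ := FiniteField.exists_root_sum_quadratic
      (f := Polynomial.X ^ 2) (g := Polynomial.X ^ 2 - Polynomial.C μ⁻¹)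
      (Polynomial.degree_X_pow 2) (Polynomial.degree_X_pow_sub_C two_pos μ⁻¹)
      (FiniteField.odd_card_of_char_ne_two fun hc => h2 (by
        have := ringChar.Nat.cast_ringChar (R := F)
        rw [hc] at this
        exact_mod_cast this))
    exact ⟨x, y, by simpa [sub_eq_zero, add_sub, ← sub_eq_add_neg, ← pow_two] using h⟩
  have hTv : sp.T.P v * sp.T.P v = (-1 : F) • 1 := by
    rw [sp.T.sq, ← sp.q_φ, he, sgn_one]
  let b₀ : GL 𝕂 F :=
    { val := x • 1 + y • sp.T.P v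
      inv := μ • (x • 1 - y • sp.T.P v)
      val_inv := by
        simp only [mul_smul_comm, mul_sub, add_mul, smul_mul_assoc, one_mul, mul_one, hTv, smul_smul,
          smul_sub, smul_add]
        match_scalars
        · field_simp
          linear_combination μ * hxy + mul_inv_cancel₀ hμ0
        · ring
      inv_val := by
        simp only [smul_mul_assoc, sub_mul, mul_add, mul_smul_comm, one_mul, mul_one, hTv, smul_smul,
          smul_sub]
        match_scalars
        · field_simp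
          linear_combination μ * hxy + mul_inv_cancel₀ hμ0
        · ring }
  have hb₀ap : ∀ u, ap b₀ u = x • u + y • ap (sp.T.gl v) u := fun u => by
    show (x • 1 + y • sp.T.P v) *ᵥ u = _
    rw [add_mulVec, smul_mulVec, smul_mulVec, one_mulVec]
    rfl
  have hb₀ : ∀ u w, sp.T.f (ap b₀ u) (ap b₀ w) = μ⁻¹ * sp.T.f u w := by
    intro u w
    set J : (𝕂 → F) → (𝕂 → F) := fun z => ap (sp.T.gl v) z with hJ
    have hJJ : ∀ z, J (J z) = -z := fun z => by
      show sp.T.P v *ᵥ (sp.T.P v *ᵥ z) = -z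
      rw [mulVec_mulVec, hTv, smul_mulVec, one_mulVec, neg_one_smul]
    have hJf : ∀ z z', sp.T.f (J z) (J z') = sp.T.f z z' := fun z z' => sp.T.isom_P v z z'
    have hJs : sp.T.f u (J w) + sp.T.f (J u) w = 0 := by
      have h := hJf u (J w)
      rw [hJJ, ← neg_one_smul F w, sp.T.hf.bilinear.smul_right] at h
      linear_combination -h
    rw [hb₀ap, hb₀ap, show ap (sp.T.gl v) u = J u from rfl, show ap (sp.T.gl v) w = J w from rfl]
    simp only [sp.T.hf.bilinear.add_left, sp.T.hf.bilinear.add_right, sp.T.hf.bilinear.smul_left,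
      sp.T.hf.bilinear.smul_right, hJf]
    linear_combination (sp.T.f u w) * hxy + x * y * hJs
  -- the part centralising the plane
  have hC : β * b₀⁻¹ ∈ isom sp.T.f := mem_isom_iff.2 fun u w => by
    have h := hb₀ (ap b₀⁻¹ u) (ap b₀⁻¹ w)
    rw [ap_ap_inv, ap_ap_inv] at h
    rw [ap_mul, ap_mul, hβ, h]
  have hI : ∀ {a₁ : GL (Fin 2) F} {b₁ : GL 𝕂 F},
      kron sp.eT sp.PT a₁ b₁ ∈ Cfsg.isometryGroup F (⇑S.quadForm) → kron sp.eT sp.PT a₁ b₁ ∈ isom S.f :=
    fun h => by rwa [S.isometryGroup_quadForm h2] at h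
  have hleft : kron sp.eT sp.PT 1 (β * b₀⁻¹) ∈ M :=
    hfull _ (hI (hT.kron_isometry_of_isom (one_mem _) hC))
      (sp.commute_of_left_right sp.leftOnly_b (sp.rightOnly_kron _)).symm
      (sp.commute_of_left_right sp.leftOnly_c (sp.rightOnly_kron _)).symm
  -- the part centralising the second plane
  have hK0 : ∀ z, ap (kron sp.eT sp.PT (1 : GL (Fin 2) F) b₀) z = x • z + y • (S.P (sp.φ v) *ᵥ z) := by
    intro z
    exact LinearMap.congr_fun (ext_pt sp.eT sp.PT
      (f := (apEquiv (kron sp.eT sp.PT (1 : GL (Fin 2) F) b₀)).toLinearMap)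
      (g := x • LinearMap.id + y • (apEquiv (S.gl (sp.φ v))).toLinearMap) fun s u => by
        simp only [LinearMap.add_apply, LinearMap.smul_apply, LinearMap.id_apply, LinearEquiv.coe_coe,
          apEquiv_apply, ap_kron, ap_one, hb₀ap, sp.ap_gl_φ, pt_add_right, pt_smul_right]) z
  have hcomm : ∀ w, S.B b w = 0 → S.B c w = 0 → S.B w (sp.φ v) = 0 →
      ((kron sp.eT sp.PT a b₀ : GL ι F) : 𝕄) * S.P w = S.P w * ((kron sp.eT sp.PT a b₀ : GL ι F) : 𝕄) := by
    intro w hbw hcw hwv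
    have hsplit : kron sp.eT sp.PT a b₀ = kron sp.eT sp.PT a 1 * kron sp.eT sp.PT 1 b₀ := by
      rw [← Orth.STensor.kron_mul, mul_one, one_mul]
    have hA := sp.commute_of_left_right (sp.leftOnly_kron a) (sp.rightOnly_perp hbw hcw)
    have hB : kron sp.eT sp.PT (1 : GL (Fin 2) F) b₀ * S.gl w = S.gl w * kron sp.eT sp.PT 1 b₀ := by
      refine gl_ext fun z => ?_
      rw [ap_mul, ap_mul, hK0, hK0, ap_add, ap_smul, ap_smul]
      show x • (S.P w *ᵥ z) + y • (S.P (sp.φ v) *ᵥ (S.P w *ᵥ z)) =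
        x • (S.P w *ᵥ z) + y • (S.P w *ᵥ (S.P (sp.φ v) *ᵥ z))
      rw [mulVec_mulVec, mulVec_mulVec, S.comm w (sp.φ v), hwv, sgn_zero, one_smul]
    rw [← Sys.coe_gl, ← Units.val_mul, ← Units.val_mul]
    refine congrArg Units.val ?_
    have hA' : kron sp.eT sp.PT a (1 : GL 𝕂 F) * S.gl w = S.gl w * kron sp.eT sp.PT a 1 := Units.ext hA
    rw [hsplit, mul_assoc, hB, ← mul_assoc, hA', mul_assoc]
  have hright : kron sp.eT sp.PT a b₀ ∈ M :=
    hfull' _ (hI (hT.kron_isometry a b₀ (mul_inv_cancel₀ hμ0) ha hb₀))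
      (hcomm b' h1 h3 hb'e) (hcomm c' h1' h4 hc'e)
  have hg : g = kron sp.eT sp.PT 1 (β * b₀⁻¹) * kron sp.eT sp.PT a b₀ := by
    rw [← Orth.STensor.kron_mul, one_mul, inv_mul_cancel_right]
    exact gl_ext_pt sp.eT sp.PT fun s u => by rw [hab, ap_kron]
  exact hg ▸ mul_mem hleft hright

/-- No element of the stabiliser of the tensor decomposition moves the plane to an orthogonal one. -/
theorem notMem_tensor_of_moves (h2 : (2 : F) ≠ 0) {b' c' : L (k + 1)}
    (hbc' : S.B b' c' = 1) (h1' : S.B b c' = 0) (h4 : S.B c c' = 0) {n : GL ι F} (hn : n ∈ S.N)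
    (hb : S.sP n b = b') : n ∉ Cfsg.Geo.tensorProductSubgroup 2 (2 ^ k) sp.eT sp.PT := by
  haveI := S.nonempty
  intro hT
  obtain ⟨a, β, hab⟩ := (mem_iff sp.eT sp.PT n).mp hT
  have hspec := S.act_spec hn b
  rw [hb] at hspec
  set r := S.cP n b
  have hinv : ∀ s u, ap n⁻¹ (pt sp.eT sp.PT s u) = pt sp.eT sp.PT (ap a⁻¹ s) (ap β⁻¹ u) := fun s u => by
    conv_lhs => rw [← ap_ap_inv a s, ← ap_ap_inv β u, ← hab]
    rw [ap_inv_ap]
  obtain ⟨A, hA⟩ := sp.leftOnly_b
  have hX : sp.LeftOnly (n * S.gl b * n⁻¹) :=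
    ⟨fun s => ap a (A (ap a⁻¹ s)), fun s u => by
      rw [ap_mul, ap_mul, hinv, hA, hab, ap_ap_inv]⟩
  have h := sp.commute_of_left_right hX (sp.rightOnly_perp h1' h4)
  have hXv : ((n * S.gl b * n⁻¹ : GL ι F) : 𝕄) = r • S.P b' := by
    rw [Units.val_mul, Units.val_mul, Sys.coe_gl, hspec, smul_mul_assoc, mul_assoc, Units.mul_inv, mul_one]
  rw [hXv, Sys.coe_gl, smul_mul_assoc, mul_smul_comm, S.comm b' c', hbc', sgn_one, smul_smul] at h
  have hr : r ≠ 0 := fun e => by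
    have := S.cP_sq hn b
    rw [show S.cP n b = r from rfl, e, zero_mul] at this
    exact zero_ne_one this
  have hne : S.P c' * S.P b' ≠ 0 := fun e => by
    obtain ⟨d, -, hd⟩ := S.P_add_coeff c' b'
    exact S.P_ne_zero _ (by rw [hd, e, smul_zero])
  have := smul_left_injective F hne h
  exact h2 (by linear_combination (norm := skip) (-r⁻¹) * this; field_simp; ring)

include sp in
/-- An overgroup containing the centralisers of a plane contains the commutator subgroup of the isometry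
group. -/
theorem omega_le_of_full [Finite F] (h2 : (2 : F) ≠ 0) (hk : 3 ≤ k) {b' c' : L (k + 1)}
    (hbc' : S.B b' c' = 1) (h1 : S.B b b' = 0) (h1' : S.B b c' = 0) (h3 : S.B c b' = 0)
    (h4 : S.B c c' = 0) {n : GL ι F} (hn : n ∈ S.D) (hnb : S.sP n b = b') (hnc : S.sP n c = c')
    {M : Subgroup (GL ι F)} (hNM : S.N ⊓ ⁅isom S.f, isom S.f⁆ ≤ M)
    (hfull : ∀ g ∈ isom S.f, (g : 𝕄) * S.P b = S.P b * (g : 𝕄) →
      (g : 𝕄) * S.P c = S.P c * (g : 𝕄) → g ∈ M) :
    ⁅isom S.f, isom S.f⁆ ≤ M := by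
  have hnN := S.D_le_N hn
  have hnΩ : n ∈ ⁅isom S.f, isom S.f⁆ := Subgroup.commutator_mono S.N_le S.N_le hn
  have hnM : n ∈ M := hNM ⟨hnN, hnΩ⟩
  have hfull' : ∀ g ∈ isom S.f, (g : 𝕄) * S.P b' = S.P b' * (g : 𝕄) →
      (g : 𝕄) * S.P c' = S.P c' * (g : 𝕄) → g ∈ M := by
    intro g hg hgb hgc
    have eb := S.act_spec hnN b
    have ec := S.act_spec hnN c
    rw [hnb] at eb
    rw [hnc] at ec
    have h := hfull (n⁻¹ * g * n) (mul_mem (mul_mem (inv_mem hnN.1) hg) hnN.1)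
      (Sys.commute_conj eb hgb) (Sys.commute_conj ec hgc)
    have h' := mul_mem (mul_mem hnM h) (inv_mem hnM)
    rwa [show n * (n⁻¹ * g * n) * n⁻¹ = g by group] at h'
  have hstab := sp.tensor_inf_le h2 hk hbc' h1 h1' h3 h4 hfull hfull'
  have hT := sp.stensor h2
  have hΩ := S.omegaGL_quadForm h2
  have hcard : Fintype.card ι = 2 ^ (k + 1) := S.card
  have h8 : 8 ≤ 2 ^ k := (Nat.pow_le_pow_right two_pos hk)
  have hkey := hT.omega_le_of_ne (S.nondeg_quadForm h2) (by rw [hcard, pow_succ]; omega) (by omega)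
    (Or.inl ⟨-1, neg_ne_zero.2 one_ne_zero, fun h => h2 (by linear_combination -h)⟩) (by omega)
    (M := M ⊓ Cfsg.Geo.omegaGL (⇑S.quadForm))
    (le_inf ((le_inf inf_le_left (inf_le_right.trans ((Orth.omegaGL_le).trans
      (S.isometryGroup_quadForm h2).le))).trans hstab) inf_le_right)
    inf_le_right (fun heq => ?_)
  · rw [hΩ] at hkey
    exact hkey.trans inf_le_left
  · have : n ∈ M ⊓ Cfsg.Geo.omegaGL (⇑S.quadForm) := ⟨hnM, by rw [hΩ]; exact hnΩ⟩
    rw [heq] at this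
    exact sp.notMem_tensor_of_moves h2 hbc' h1' h4 hnN hnb this.1

end EllSplit

/-- An overgroup containing the whole centraliser of an anisotropic plane of labels contains the commutator
subgroup of the isometry group. -/
theorem Sys.omega_le_of_plane_full [Finite F] (S : Sys (k + 1) ι F) (hk : 3 ≤ k) (h2 : (2 : F) ≠ 0)
    {M : Subgroup (GL ι F)} (hNO : S.N ⊓ ⁅isom S.f, isom S.f⁆ ≤ M) {b c : L (k + 1)} (hb : S.q b = 1)
    (hc : S.q c = 1) (hbc : S.B b c = 1)
    (hfull : ∀ g ∈ isom S.f, (g : 𝕄) * S.P b = S.P b * (g : 𝕄) →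
      (g : 𝕄) * S.P c = S.P c * (g : 𝕄) → g ∈ M) :
    ⁅isom S.f, isom S.f⁆ ≤ M := by
  obtain ⟨b', c', hb', hc', hbc', h1, h1', h3, h4⟩ := S.exists_plane_perp (by omega) hbc
  obtain ⟨n, hn, hnb, hnc⟩ := S.exists_plane_map (by omega) h2 hb hc hbc hb' hc' hbc'
  obtain ⟨sp⟩ := exists_ellSplit h2 S hb hc hbc
  exact sp.omega_le_of_full h2 hk hbc' h1 h1' h3 h4 hn hnb hnc hNO hfull

end CfsgLib.Geometric.OrthType
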