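import Cfsg.Agent.Lib.Geometric.OrthType.EllSplit

/-!
The centraliser of an anisotropic plane of labels in an overgroup either normalises the system or is the
whole centraliser in the isometry group.
-/

set_option autoImplicit false
set_option linter.unusedSectionVars false

namespace CfsgLib.Geometric.OrthType

open CfsgLib.Geometric

variable {k : ℕ} {ι : Type} [Fintype ι] [DecidableEq ι] {F : Type*} [Field F]

local notation "𝕄" => Matrix ι ι F

/-- The dichotomy for the centraliser of an anisotropic plane of labels. -/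
theorem Sys.plane_dichotomy [Finite F] (S : Sys (k + 1) ι F) (hk : 3 ≤ k) (h2 : (2 : F) ≠ 0)
    (hT : ∀ T : SympType.Sys k (SympType.K k) F, T.Dichotomy) {M : Subgroup (GL ι F)}
    (hNO : S.N ⊓ ⁅isom S.f, isom S.f⁆ ≤ M) (hM : M ≤ isom S.f) {b c : L (k + 1)} (hb : S.q b = 1)
    (hc : S.q c = 1) (hbc : S.B b c = 1) :
    (∀ g ∈ M, (g : 𝕄) * S.P b = S.P b * (g : 𝕄) → (g : 𝕄) * S.P c = S.P c * (g : 𝕄) → g ∈ S.N) ∨
      (∀ g ∈ isom S.f, (g : 𝕄) * S.P b = S.P b * (g : 𝕄) → (g : 𝕄) * S.P c = S.P c * (g : 𝕄) →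
        g ∈ M) := by
  obtain ⟨sp⟩ := exists_ellSplit h2 S hb hc hbc
  rcases hT sp.T (M.comap sp.psi) (fun A hA => hNO (sp.psi_mem_inf h2 (by omega) hA))
    (fun A hA => sp.psi_mem_isom.1 (hM hA)) with h | h
  · refine Or.inl fun g hg hgb hgc => ?_
    obtain ⟨A, rfl⟩ := sp.exists_psi h2 hgb hgc
    exact sp.psi_mem_N (h hg)
  · refine Or.inr fun g hg hgb hgc => ?_
    obtain ⟨A, rfl⟩ := sp.exists_psi h2 hgb hgc
    have hA : A ∈ M.comap sp.psi := h ▸ sp.psi_mem_isom.1 hg
    exact hA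

end CfsgLib.Geometric.OrthType
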