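import Cfsg.Agent.Lib.Geometric.OrthType.Model
import Cfsg.Agent.Lib.Geometric.Orth.Omega

/-!
Systems for the polar form of a quadratic form of plus type: the isometry group, the commutator
subgroup of the isometry group is not contained in the normaliser of the system, and the maximality
deduced from the dichotomy.
-/

set_option autoImplicit false
set_option linter.unusedSectionVars false

namespace CfsgLib.Geometric.OrthType

open Cfsg.Geo CfsgLib.Geometric Module QuadraticMap
open CfsgLib.Geometric.SympType (zmod2_cases)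
open CfsgLib.Geometric.PauliMax (sgn sgn_zero sgn_one)

variable {k : ℕ} {ι : Type} [Fintype ι] [DecidableEq ι] {F : Type*} [Field F]

local notation "𝕄" => Matrix ι ι F

variable {Q : (ι → F) → F}

/-- In odd characteristic the isometries of a quadratic form are those of its polar form. -/
theorem isometryGroup_eq_isom (h2 : (2 : F) ≠ 0) (hQ : IsNondegenerateQuadraticForm Q) :
    Cfsg.isometryGroup F Q = isom (polar Q) := by
  have hd : ∀ x, polar Q x x = 2 * Q x := fun x => by
    have h := hQ.smul 2 x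
    rw [two_smul] at h
    simp only [polar, h]; ring
  ext g
  rw [← Orth.coe_toQF hQ, Orth.mem_isometryGroup_iff, mem_isom_iff]
  constructor
  · intro h u v
    simp only [polar, ← ap_add, h]
  · intro h x
    have e := h x x
    rw [Orth.coe_toQF hQ] at e ⊢
    rw [hd, hd] at e
    exact mul_left_cancel₀ h2 e

/-- The commutator subgroup of the isometry group of the polar form. -/
theorem omegaGL_eq_commutator (h2 : (2 : F) ≠ 0) (hQ : IsNondegenerateQuadraticForm Q) :
    omegaGL Q = ⁅isom (polar Q), isom (polar Q)⁆ := by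
  rw [← isometryGroup_eq_isom h2 hQ, ← Orth.coe_toQF hQ, Orth.omegaGL_eq]

variable (S : Sys k ι F)

theorem Sys.D_le_omega (h2 : (2 : F) ≠ 0) (hQ : IsNondegenerateQuadraticForm Q) (hf : S.f = polar Q) :
    S.D ≤ omegaGL Q := by
  rw [omegaGL_eq_commutator h2 hQ, ← hf]
  exact Subgroup.commutator_mono S.N_le S.N_le

/-- Some element of `omegaGL` moves the system. -/
theorem Sys.not_omega_le_N [Fintype F] (h2 : (2 : F) ≠ 0) (hQ : IsNondegenerateQuadraticForm Q)
    (hf : S.f = polar Q) (hplus : IsPlusTypeOn Q ⊤) (hn : 9 ≤ Fintype.card ι) :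
    ¬ omegaGL Q ≤ S.N := by
  intro hle
  obtain ⟨U, -, hU, hUd⟩ := hplus
  rw [finrank_top, Module.finrank_fintype_fun_eq_card] at hUd
  obtain ⟨u, hu, hu0⟩ := Submodule.exists_mem_ne_zero_of_ne_bot (p := U)
    (fun h => by rw [h, finrank_bot] at hUd; omega)
  obtain ⟨w, hw, hwu⟩ := SetLike.exists_of_lt (show Submodule.span F {u} < U from
    Submodule.lt_of_le_of_finrank_lt_finrank ((Submodule.span_singleton_le_iff_mem _ _).2 hu)
      (by rw [finrank_span_singleton hu0]; omega))
  set Q₀ := Orth.toQF hQ with hQ₀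
  have hQu : Q₀ u = 0 := hU u hu
  have huw : polar Q₀ u w = 0 := by
    show Q (u + w) - Q u - Q w = 0
    rw [hU _ (U.add_mem hu hw), hU _ hu, hU _ hw]; ring
  set g := Orth.sg Q₀ u w hQu huw with hgdef
  have hgΩ : g ∈ omegaGL Q := Orth.sg_mem (Orth.nondeg_toQF hQ) (by omega) hQu huw
  have hgN : g ∈ S.N := hle hgΩ
  let φ : (ι → F) →ₗ[F] (Fin 2 → F) :=
    LinearMap.pi ![Q₀.polarBilin.flip u, Q₀.polarBilin.flip w]
  set W := LinearMap.ker φ with hW
  have hfix : ∀ x ∈ W, ap g x = x := fun x hx => by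
    have h := LinearMap.mem_ker.1 hx
    exact Orth.ap_sg_fix hQu huw (congrFun h 0) (congrFun h 1)
  have hWd : Fintype.card ι ≤ finrank F W + 2 := by
    have h1 := LinearMap.finrank_range_add_finrank_ker φ
    have h2' := Submodule.finrank_le (LinearMap.range φ)
    rw [Module.finrank_fintype_fun_eq_card] at h1
    rw [Module.finrank_fin_fun] at h2'
    rw [hW]
    omega
  haveI := S.nonempty
  have hcomm : ∀ z, (g : 𝕄) * S.P z = S.P z * (g : 𝕄) := by
    intro z
    obtain ⟨c₀, hc₀0, hc₀⟩ := S.P_add_coeff (S.sP g z) z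
    -- the commutator is a multiple of a system element
    set X := g * S.gl z * g⁻¹ * (S.gl z)⁻¹ with hX
    obtain ⟨t, c, hXt⟩ : ∃ (t : L k) (c : F), (X : 𝕄) = c • S.P t := by
      refine ⟨S.sP g z + z, S.cP g z * sgn F (S.q z) * c₀⁻¹, ?_⟩
      rw [hX, Units.val_mul, Units.val_mul, Units.val_mul, Sys.coe_gl, S.act_spec hgN, smul_mul_assoc,
        mul_assoc (S.P (S.sP g z)), Units.mul_inv, mul_one,
        show (((S.gl z)⁻¹ : GL ι F) : 𝕄) = sgn F (S.q z) • S.P z from rfl, smul_mul_assoc, mul_smul_comm,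
        smul_smul, hc₀, smul_smul, mul_assoc, inv_mul_cancel₀ hc₀0, mul_one]
    let A := W ⊓ W.map (apEquiv (S.gl z)).toLinearMap
    have hA : ∀ x ∈ A, ap X x = x := by
      rintro x ⟨hx1, y, hy, rfl⟩
      simp only [LinearEquiv.coe_coe, apEquiv_apply] at hx1 ⊢
      rw [hX, ap_mul, ap_mul, ap_mul, ap_inv_ap,
        show ap g⁻¹ y = y by conv_lhs => rw [← hfix y hy, ap_inv_ap]]
      exact hfix _ hx1
    have hAd : Fintype.card ι ≤ finrank F A + 4 := by
      have h1 := Submodule.finrank_sup_add_finrank_inf_eq W (W.map (apEquiv (S.gl z)).toLinearMap)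
      have h3 := Submodule.finrank_le (W ⊔ W.map (apEquiv (S.gl z)).toLinearMap)
      rw [LinearEquiv.finrank_map_eq (apEquiv (S.gl z))] at h1
      rw [Module.finrank_fintype_fun_eq_card] at h3
      have h4 : finrank F A =
        finrank F ↥(W ⊓ W.map (apEquiv (S.gl z)).toLinearMap) := rfl
      omega
    have ht : t = 0 := by
      by_contra ht
      obtain ⟨s, hs⟩ : ∃ s, S.B t s = 1 := by
        by_contra hcon
        push Not at hcon
        exact ht (S.nondeg t fun w => (zmod2_cases _).resolve_right (hcon w))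
      let L' := (apEquiv (S.gl s)).toLinearMap
      have hdisj : A ⊓ A.map L' = ⊥ := by
        rw [Submodule.eq_bot_iff]
        rintro _ ⟨h1, x, hx, rfl⟩
        have e1 := hA x hx
        have e2 := hA _ h1
        simp only [L', LinearEquiv.coe_coe, apEquiv_apply] at e2 ⊢
        rw [ap_def, hXt] at e1
        rw [ap_def X, hXt, ap_def (S.gl s), Sys.coe_gl, Matrix.mulVec_mulVec, smul_mul_assoc, S.comm t s,
          hs, sgn_one, smul_smul, mul_comm c, ← smul_smul, ← Matrix.mul_smul, Matrix.smul_mulVec,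
          ← Matrix.mulVec_mulVec, e1, neg_one_smul] at e2
        rw [ap_def, Sys.coe_gl]
        have h3 : (2 : F) • (S.P s).mulVec x = 0 := by
          rw [two_smul]
          nth_rewrite 1 [← e2]
          exact neg_add_cancel _
        exact (smul_eq_zero.1 h3).resolve_left h2
      have h1 := Submodule.finrank_sup_add_finrank_inf_eq A (A.map L')
      rw [hdisj, finrank_bot, add_zero, LinearEquiv.finrank_map_eq (apEquiv (S.gl s))] at h1
      have h4 := Submodule.finrank_le (A ⊔ A.map L')
      rw [Module.finrank_fintype_fun_eq_card] at h4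
      omega
    subst ht
    obtain ⟨x, hx, hx0⟩ := Submodule.exists_mem_ne_zero_of_ne_bot (p := A)
      (fun h => by rw [h, finrank_bot] at hAd; omega)
    have hc : c = 1 := by
      have e := hA x hx
      rw [ap_def, hXt, S.zero, Matrix.smul_mulVec, Matrix.one_mulVec] at e
      exact smul_left_injective F hx0 (show c • x = (1 : F) • x by rw [one_smul]; exact e)
    have hX1 : X = 1 := Units.ext (by rw [hXt, S.zero, hc, one_smul]; rfl)
    have e : g * S.gl z = S.gl z * g := by
      calc g * S.gl z = X * (S.gl z * g) := by rw [hX]; group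
        _ = _ := by rw [hX1, one_mul]
    simpa using congrArg Units.val e
  obtain ⟨c, hc⟩ := S.eq_scalar_of_commute hcomm
  obtain ⟨x, hx, hx0⟩ := Submodule.exists_mem_ne_zero_of_ne_bot (p := W)
    (fun h => by rw [h, finrank_bot] at hWd; omega)
  have hc1 : c = 1 := by
    have e := hfix x hx
    rw [ap_def, hc, Matrix.smul_mulVec, Matrix.one_mulVec] at e
    exact smul_left_injective F hx0 (show c • x = (1 : F) • x by rw [one_smul]; exact e)
  obtain ⟨y, hy⟩ := (hQ.nondegenerate u hu0).1
  have e := Orth.ap_sg hQu huw y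
  rw [← hgdef, ap_def, hc, hc1, one_smul, Matrix.one_mulVec] at e
  have hsum : polar Q₀ y u • w = (polar Q₀ y w + Q₀ w * polar Q₀ y u) • u :=
    sub_eq_zero.1 (by rw [eq_comm, add_sub_assoc] at e; exact add_eq_left.1 e)
  exact hwu (Submodule.mem_span_singleton.2 ⟨(polar Q₀ y u)⁻¹ * (polar Q₀ y w + Q₀ w * polar Q₀ y u),
    by rw [mul_smul, ← hsum, smul_smul, inv_mul_cancel₀ (show polar Q₀ y u ≠ 0 from hy), one_smul]⟩)

/-- Maximality from the dichotomy. -/
theorem Sys.isMaximalIn_of_dichotomy [Fintype F] (h2 : (2 : F) ≠ 0) (hQ : IsNondegenerateQuadraticForm Q)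
    (hf : S.f = polar Q) (hplus : IsPlusTypeOn Q ⊤) (hn : 9 ≤ Fintype.card ι) (hd : S.Dichotomy) :
    IsMaximalIn (omegaGL Q) (S.N ⊓ omegaGL Q) := by
  have hΩ := omegaGL_eq_commutator h2 hQ
  refine ⟨lt_of_le_of_ne inf_le_right fun e => S.not_omega_le_N h2 hQ hf hplus hn (e.ge.trans inf_le_left),
    fun M h1 h2' => ?_⟩
  have hD : S.D ≤ M := (le_inf S.D_le_N (S.D_le_omega h2 hQ hf)).trans h1
  have hle : M ≤ isom S.f := by
    refine h2'.trans ?_
    rw [hΩ, hf]
    exact Subgroup.commutator_le_self _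
  rcases hd M hD hle with h | h
  · exact Or.inl (le_antisymm (le_inf h h2') h1)
  · rw [hf, ← hΩ] at h
    exact Or.inr (le_antisymm h2' h)

end CfsgLib.Geometric.OrthType
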