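import Cfsg.Agent.Lib.Geometric.SympType.Induction
import Cfsg.Agent.Lib.Geometric.SympType.Local
import Cfsg.Agent.Lib.Geometric.SympType.Transitive
import Cfsg.Agent.Lib.Geometric.SympType.Big
import Cfsg.Agent.Lib.Geometric.SympType.Base
import Cfsg.Agent.Lib.Geometric.PauliMinus.Dichotomy

/-!
The dichotomy for systems of minus type of any size over a prime field.
-/

set_option autoImplicit false

namespace CfsgLib.Geometric.OrthType

open CfsgLib.Geometric CfsgLib.Geometric.SympType

/-- Overgroups of the normaliser of a system of minus type of size at least eight. -/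
theorem sympType_dichotomy {F : Type*} [Field F] [Fintype F] {p : ℕ} (hp : p.Prime)
    (hF : Fintype.card F = p) (h2 : (2 : F) ≠ 0) {k : ℕ} (hk : 3 ≤ k) {ι : Type} [Fintype ι]
    [DecidableEq ι] (T : SympType.Sys k ι F) : T.Dichotomy :=
  dichotomy_of_steps h2 (fun ι _ _ T => dichotomy_three_of_std
      (fun T' M hNM hM => T'.dichotomy h2 hp hF hNM hM) T)
    (fun j hj ι _ _ T a b ha hb h => T.transitive hj h2 ha hb h)
    (fun j hj hT ι _ _ T M hNM hM hne a ha hq g hg c hc =>
      local_singular hj hp hF h2 T hT hNM hM hne ha hq hg hc)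
    k hk ι T

end CfsgLib.Geometric.OrthType
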