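import Cfsg.Agent.Lib.Geometric.Symp
import Cfsg.Agent.Lib.Geometric.SympType.Quad
import Cfsg.Agent.Lib.Geometric.PauliMax.Action

/-!
Systems of isometries `P v` of a symmetric bilinear form, indexed by a quadratic space of plus type of
dimension `2 k` over `𝔽₂`, with `P v * P v = ± 1` according to the quadratic form and commuting up
to the sign of its polar form; the subgroup of isometries permuting them up to scalars.
-/

set_option autoImplicit false
set_option linter.unusedSectionVars false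

namespace CfsgLib.Geometric.OrthType

open Cfsg.Geo CfsgLib.Geometric
open CfsgLib.Geometric.SympType (Quad)
open CfsgLib.Geometric.PauliMax (sgn sgn_zero sgn_one sgn_cases sgn_sq sgn_inj sgn_add sgn_ne_zero)

/-- The labels. -/
abbrev L (k : ℕ) := Fin (2 * k) → ZMod 2

theorem two_torsion {n : ℕ} (v : Fin n → ZMod 2) : v + v = 0 := funext fun _ => CharTwo.add_self_eq_zero _

/-- A system of plus type. -/
structure Sys (k : ℕ) (ι : Type) [Fintype ι] [DecidableEq ι] (F : Type*) [Field F] where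
  f : (ι → F) → (ι → F) → F
  bil : Cfsg.Geo.IsBilinearForm f
  symm : ∀ x y, f x y = f y x
  nd : Cfsg.Geo.IsNondegenerateForm f
  P : L k → Matrix ι ι F
  q : L k → ZMod 2
  B : L k →ₗ[ZMod 2] L k →ₗ[ZMod 2] ZMod 2
  q_add : ∀ v w, q (v + w) = q v + q w + B v w
  nondeg : ∀ v, (∀ w, B v w = 0) → v = 0
  plus : ∃ W : Submodule (ZMod 2) (L k), (∀ x ∈ W, q x = 0) ∧ Module.finrank (ZMod 2) W = k
  zero : P 0 = 1
  sq : ∀ v, P v * P v = sgn F (q v) • 1
  comm : ∀ v w, P v * P w = sgn F (B v w) • (P w * P v)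
  add : ∀ v w, ∃ c : F, P (v + w) = c • (P v * P w)
  li : LinearIndependent F P
  card : Fintype.card ι = 2 ^ k
  isom_P : ∀ v x y, f (Matrix.mulVec (P v) x) (Matrix.mulVec (P v) y) = f x y

variable {k : ℕ} {ι : Type} [Fintype ι] [DecidableEq ι] {F : Type*} [Field F]

local notation "𝕄" => Matrix ι ι F

namespace Sys

variable (S : Sys k ι F)

include S in
theorem nonempty : Nonempty ι := Fintype.card_pos_iff.1 (S.card ▸ Nat.two_pow_pos k)

theorem span_eq_top : Submodule.span F (Set.range S.P) = ⊤ :=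
  haveI := S.nonempty
  S.li.span_eq_top_of_card_eq_finrank' (by
    rw [Fintype.card_fun, ZMod.card, Fintype.card_fin, Module.finrank_matrix, Module.finrank_self,
      mul_one, S.card, ← pow_add, two_mul])

theorem P_ne_zero (v : L k) : S.P v ≠ 0 := S.li.ne_zero v

/-- An element of the system in the general linear group. -/
def gl (v : L k) : GL ι F where
  val := S.P v
  inv := sgn F (S.q v) • S.P v
  val_inv := by rw [mul_smul_comm, S.sq, smul_smul, sgn_sq, one_smul]
  inv_val := by rw [smul_mul_assoc, S.sq, smul_smul, sgn_sq, one_smul]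

@[simp] theorem coe_gl (v : L k) : ((S.gl v : GL ι F) : 𝕄) = S.P v := rfl

theorem gl_mem_isom (v : L k) : S.gl v ∈ isom S.f := S.isom_P v

theorem eq_of_smul_P {c : F} {v w : L k} (h : S.P v = c • S.P w) : v = w :=
  S.li.eq_of_smul_apply_eq_smul_apply 1 c v w one_ne_zero (by rw [one_smul]; exact h)

theorem smul_P_inj {c d : F} (w : L k) (h : c • S.P w = d • S.P w) : c = d :=
  smul_left_injective F (S.P_ne_zero w) h

theorem P_add_coeff (v w : L k) : ∃ c : F, c ≠ 0 ∧ S.P (v + w) = c • (S.P v * S.P w) := by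
  obtain ⟨c, hc⟩ := S.add v w
  exact ⟨c, fun h => S.P_ne_zero _ (by rw [hc, h, zero_smul]), hc⟩

theorem sk (v w : L k) : S.B v w = S.B w v := by
  have h1 := S.q_add v w
  have h2 := S.q_add w v
  rw [add_comm w v, h1, add_comm (S.q w)] at h2
  exact add_left_cancel h2

theorem q_zero : S.q 0 = 0 := by
  have h := S.q_add 0 0
  simp only [add_zero, map_zero] at h
  exact add_eq_left.1 h.symm

theorem B_self (v : L k) : S.B v v = 0 := by
  have h := S.q_add v v
  rw [two_torsion, S.q_zero, CharTwo.add_self_eq_zero, zero_add] at h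
  exact h.symm

theorem f_zero (x : ι → F) : S.f x 0 = 0 := by
  have h := S.bil.smul_right 0 x 0
  rwa [zero_smul, zero_mul] at h

theorem f_neg_right (x y : ι → F) : S.f x (-y) = - S.f x y := by
  rw [← neg_one_smul F y, S.bil.smul_right, neg_one_mul]

/-- The quadratic space of labels. -/
def quad : Quad k := ⟨S.q, S.B, S.q_add, S.nondeg⟩

/-- `g` sends every label to a label, up to scalars. -/
def Perm (g : 𝕄) : Prop := ∀ v, ∃ (w : L k) (c : F), g * S.P v = c • (S.P w * g)

theorem coeff_ne_zero {g : GL ι F} {v w : L k} {c : F}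
    (h : (g : 𝕄) * S.P v = c • (S.P w * (g : 𝕄))) : c ≠ 0 := by
  rintro rfl
  rw [zero_smul] at h
  exact S.P_ne_zero v ((Units.mul_right_inj g).1 (h.trans (mul_zero _).symm))

theorem perm_inv {g : GL ι F} (h : S.Perm (g : 𝕄)) : S.Perm ((g⁻¹ : GL ι F) : 𝕄) := by
  choose f c hc using h
  have hc0 : ∀ v, c v ≠ 0 := fun v => S.coeff_ne_zero (hc v)
  have hinj : Function.Injective f := by
    intro v v' hvv
    have h1 : (g : 𝕄) * S.P v = (g : 𝕄) * ((c v / c v') • S.P v') := by
      rw [mul_smul_comm, hc v', smul_smul, div_mul_cancel₀ _ (hc0 v'), hc v, hvv]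
    exact S.eq_of_smul_P ((Units.mul_right_inj g).1 h1)
  intro v
  obtain ⟨u, rfl⟩ := (Finite.injective_iff_surjective.1 hinj) v
  refine ⟨u, (c u)⁻¹, ?_⟩
  have h1 : ((g⁻¹ : GL ι F) : 𝕄) * ((g : 𝕄) * S.P u) * ((g⁻¹ : GL ι F) : 𝕄) =
      S.P u * ((g⁻¹ : GL ι F) : 𝕄) := by
    rw [← mul_assoc, Units.inv_mul, one_mul]
  rw [hc u, mul_smul_comm, smul_mul_assoc, mul_assoc, mul_assoc, Units.mul_inv, mul_one] at h1
  rw [← h1, smul_smul, inv_mul_cancel₀ (hc0 u), one_smul]

/-- The isometries permuting the system. -/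
def N : Subgroup (GL ι F) where
  carrier := {g | g ∈ isom S.f ∧ S.Perm (g : 𝕄)}
  one_mem' := ⟨one_mem _, fun v => ⟨v, 1, by simp⟩⟩
  mul_mem' := by
    intro g h hg hh
    refine ⟨mul_mem hg.1 hh.1, fun v => ?_⟩
    obtain ⟨w, c, hw⟩ := hh.2 v
    obtain ⟨z, d, hz⟩ := hg.2 w
    refine ⟨z, c * d, ?_⟩
    rw [Units.val_mul, mul_assoc, hw, mul_smul_comm, ← mul_assoc, hz, smul_mul_assoc, smul_smul,
      mul_assoc]
  inv_mem' := fun {g} hg => ⟨inv_mem hg.1, S.perm_inv hg.2⟩

theorem mem_N {g : GL ι F} : g ∈ S.N ↔ g ∈ isom S.f ∧ S.Perm (g : 𝕄) := Iff.rfl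

theorem N_le : S.N ≤ isom S.f := fun _ h => h.1

theorem gl_mem_N (v : L k) : S.gl v ∈ S.N := ⟨S.gl_mem_isom v, fun w => ⟨w, _, S.comm v w⟩⟩

/-- It suffices to treat a set of labels spanning the space. -/
theorem perm_of_closure {g : GL ι F} {s : Set (L k)} (hs : Submodule.span (ZMod 2) s = ⊤)
    (h : ∀ v ∈ s, ∃ (w : L k) (c : F), (g : 𝕄) * S.P v = c • (S.P w * (g : 𝕄))) : S.Perm (g : 𝕄) := by
  intro v
  have hv : v ∈ Submodule.span (ZMod 2) s := hs ▸ Submodule.mem_top
  induction hv using Submodule.span_induction with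
  | mem x hx => exact h x hx
  | zero => exact ⟨0, 1, by simp [S.zero]⟩
  | add x y _ _ hx hy =>
    obtain ⟨x', cx, hx⟩ := hx
    obtain ⟨y', cy, hy⟩ := hy
    obtain ⟨a, -, ha⟩ := S.P_add_coeff x y
    obtain ⟨l, hl0, hl⟩ := S.P_add_coeff x' y'
    refine ⟨x' + y', a * (cx * cy) * l⁻¹, ?_⟩
    rw [ha, mul_smul_comm, ← mul_assoc, hx, smul_mul_assoc, mul_assoc, hy, mul_smul_comm,
      smul_smul, smul_smul, hl, smul_mul_assoc, smul_smul, ← mul_assoc (S.P x'),
      inv_mul_cancel_right₀ hl0, mul_assoc a]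
  | smul a x _ hx =>
    have dich : a = 0 ∨ a = 1 := by revert a; decide
    rcases dich with rfl | rfl
    · exact ⟨0, 1, by simp [S.zero]⟩
    · rwa [one_smul]

theorem eq_scalar_of_commute {X : 𝕄} (h : ∀ v, X * S.P v = S.P v * X) : ∃ c : F, X = c • (1 : 𝕄) := by
  have hall : ∀ Y : 𝕄, X * Y = Y * X := by
    intro Y
    have hY : Y ∈ Submodule.span F (Set.range S.P) := S.span_eq_top ▸ Submodule.mem_top
    induction hY using Submodule.span_induction with
    | mem y hy => obtain ⟨v, rfl⟩ := hy; exact h v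
    | zero => simp
    | add a b _ _ ha hb => rw [mul_add, add_mul, ha, hb]
    | smul c a _ ha => rw [mul_smul_comm, smul_mul_assoc, ha]
  obtain ⟨c, hc⟩ := Matrix.mem_range_scalar_of_commute_single (M := X) fun i j _ => (hall _).symm
  exact ⟨c, by rw [← hc, Matrix.smul_one_eq_diagonal]; rfl⟩

/-- An isometry which is a scalar multiple of an isometry differs from it by a sign. -/
theorem smul_sq_eq_one {g h : GL ι F} (hg : g ∈ isom S.f) (hh : h ∈ isom S.f) {c : F}
    (e : (g : 𝕄) = c • (h : 𝕄)) : c * c = 1 := by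
  haveI := S.nonempty
  obtain ⟨x, hx⟩ : ∃ x : ι → F, x ≠ 0 := ⟨1, fun h0 => one_ne_zero (congrFun h0 S.nonempty.some)⟩
  obtain ⟨y, hy⟩ := (S.nd x hx).1
  have e1 : ∀ z, ap g z = c • ap h z := fun z => by
    show Matrix.mulVec (g : 𝕄) z = c • Matrix.mulVec (h : 𝕄) z
    rw [e, Matrix.smul_mulVec]
  have h1 : ∀ u v, S.f u v = c * c * S.f u v := fun u v => by
    conv_lhs => rw [← mem_isom_iff.1 hg u v, e1, e1, S.bil.smul_left, S.bil.smul_right,
      mem_isom_iff.1 hh u v]
    rw [mul_assoc]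
  have h2 := h1 y x
  exact (mul_eq_right₀ hy).1 h2.symm

/-- The commutator subgroup of the normaliser. -/
abbrev D : Subgroup (GL ι F) := ⁅S.N, S.N⁆

theorem D_le_N : S.D ≤ S.N := by
  rw [Subgroup.commutator_le]
  intro g hg h hh
  exact mul_mem (mul_mem (mul_mem hg hh) (inv_mem hg)) (inv_mem hh)

/-- The dichotomy for overgroups of the commutator subgroup of the normaliser. -/
def Dichotomy : Prop :=
  ∀ M : Subgroup (GL ι F), S.D ≤ M → M ≤ isom S.f → M ≤ S.N ∨ ⁅isom S.f, isom S.f⁆ ≤ M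

end Sys

end CfsgLib.Geometric.OrthType
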