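import Cfsg.Agent.Lib.Geometric.OrthType.Pair

/-!
The commutator subgroup of the normaliser of a system of plus type is transitive on the non-zero labels
of a given square, contains the system and, with it, the sign.
-/

set_option autoImplicit false
set_option linter.unusedSectionVars false

namespace CfsgLib.Geometric.OrthType

open Module CfsgLib.Geometric
open CfsgLib.Geometric.SympType (Quad zmod2_cases)
open CfsgLib.Geometric.PauliMax (sgn sgn_zero sgn_one sgn_cases sgn_sq)

variable {k : ℕ} {ι : Type} [Fintype ι] [DecidableEq ι] {F : Type*} [Field F]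

local notation "𝕄" => Matrix ι ι F

namespace Sys

variable (S : Sys k ι F)

theorem tau_tau {v : L k} (hv : S.q v = 1) (z : L k) : S.tau v (S.tau v z) = z := by
  simp only [tau, map_add, map_smul, LinearMap.add_apply, LinearMap.smul_apply, S.B_self, smul_zero,
    add_zero]
  rw [add_assoc, two_torsion, add_zero]

/-- Two labels with product one are exchanged by a commutator of the normaliser. -/
theorem exists_mem_D_step (hk : 3 ≤ k) (h2 : (2 : F) ≠ 0) {a b : L k} (ha : a ≠ 0) (hb : b ≠ 0)
    (h : S.q a = S.q b) (hab : S.B a b = 1) : ∃ n ∈ S.D, S.sP n a = b := by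
  let Q := S.quad
  have hne : a ≠ b := fun e => by rw [e, S.B_self] at hab; exact zero_ne_one hab
  have hrk : ∀ x y : L k, k < finrank (ZMod 2)
      (Q.perp (Submodule.span (ZMod 2) ((({x, y} : Finset (L k)) : Set (L k))))) := fun x y => by
    have := Q.le_finrank_perp_span ({x, y} : Finset (L k))
    have := Finset.card_le_two (a := x) (b := y)
    omega
  obtain ⟨d, hda, hdb⟩ := Q.exists_dual ha hb hne 1 0
  obtain ⟨e, he, hv⟩ := Q.exists_coset (hrk a b) d 1
  set v := d + e with hvdef
  set w := a + b with hwdef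
  have hw : S.q w = 1 := by rw [hwdef, S.q_add, h, hab, CharTwo.add_self_eq_zero, zero_add]
  have hva : S.B a v = 1 := by
    rw [hvdef, map_add, show S.B a d = 1 from hda,
      show S.B a e = 0 from he a (Submodule.subset_span (by simp)), add_zero]
  have hvb : S.B b v = 0 := by
    rw [hvdef, map_add, show S.B b d = 0 from hdb,
      show S.B b e = 0 from he b (Submodule.subset_span (by simp)), add_zero]
  have hvw : S.B w v = 1 := by rw [hwdef, LinearMap.map_add₂, hva, hvb, add_zero]
  obtain ⟨u, hu, hu1⟩ := Q.exists_coset (hrk v w) 0 1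
  rw [zero_add] at hu1
  have huv : S.B v u = 0 := hu v (Submodule.subset_span (by simp))
  have huw : S.B w u = 0 := hu w (Submodule.subset_span (by simp))
  have hs : S.q (v + w) = 1 := by
    rw [S.q_add, show S.q v = 1 from hv, hw, S.sk, hvw]; decide
  set g := S.pairGL h2 (v := w) (w := u) hw hu1 (one_mul 1) (one_mul 1) with hg
  set h' := S.pairGL h2 (v := u) (w := v + w) hu1 hs (one_mul 1) (one_mul 1) with hh'
  have hgN : g ∈ S.N := S.pairGL_mem_N h2 hw hu1 _ _
  have hhN : h' ∈ S.N := S.pairGL_mem_N h2 hu1 hs _ _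
  have hD : h' * g * h'⁻¹ * g⁻¹ ∈ S.D := Subgroup.commutator_mem_commutator hhN hgN
  refine ⟨_, hD, ?_⟩
  have hH : ∀ z, S.sP h' z = S.tau u (S.tau (v + w) z) := fun z => S.sP_pairGL h2 hu1 hs _ _ z
  have hG : ∀ z, S.sP g z = S.tau w (S.tau u z) := fun z => S.sP_pairGL h2 hw hu1 _ _ z
  have haw : S.B a w = 1 := by rw [hwdef, map_add, S.B_self, hab, zero_add]
  have hbw : S.B b w = 1 := by rw [hwdef, map_add, S.B_self, add_zero, S.sk, hab]
  have hbu : S.B b u = S.B a u := by
    rw [hwdef, LinearMap.map_add₂] at huw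
    exact (CharTwo.add_eq_zero.1 huw).symm
  have haw' : a + w = b := by rw [hwdef, ← add_assoc, two_torsion, zero_add]
  have hsum : a + v + (v + w) = b := by rw [add_assoc, ← add_assoc v v, two_torsion, zero_add, haw']
  have hvs : S.B v w = 1 := by rw [S.sk, hvw]
  -- the images of `a + v`
  have e1 : S.sP h' (a + v) = b + S.B a u • u := by
    have c1 : S.B (a + v) (v + w) = 1 := by
      simp only [map_add, LinearMap.add_apply, hva, haw, S.B_self, hvs]; decide
    rw [hH, show S.tau (v + w) (a + v) = b by rw [tau, c1, one_smul, hsum], tau, hbu]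
  have e2 : S.sP (g * h') (a + v) = a := by
    rw [(S.act_mul hgN hhN _).1, e1, hG,
      show S.tau u (b + S.B a u • u) = b by rw [← hbu]; exact S.tau_tau hu1 b, tau, hbw, one_smul, hwdef,
      add_left_comm, two_torsion, add_zero]
  have e3 : S.sP (h' * g) (a + v) = b := by
    have c1 : S.B (a + v + S.B a u • u) w = 0 := by
      simp only [map_add, map_smul, LinearMap.add_apply, LinearMap.smul_apply, haw, hvs, S.sk u w, huw,
        smul_zero]; decide
    have c2 : S.B (a + v + S.B a u • u) (v + w) = 1 := by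
      simp only [map_add, map_smul, LinearMap.add_apply, LinearMap.smul_apply, haw, hvs, S.sk u v,
        S.sk u w, huw, huv, hva, S.B_self, smul_zero]; decide
    have c3 : S.B (a + v) u = S.B a u := by rw [map_add, LinearMap.add_apply, huv, add_zero]
    rw [(S.act_mul hhN hgN _).1, hG, hH,
      show S.tau u (a + v) = a + v + S.B a u • u by rw [tau, c3],
      show S.tau w (a + v + S.B a u • u) = a + v + S.B a u • u by rw [tau, c1, zero_smul, add_zero],
      show S.tau (v + w) (a + v + S.B a u • u) = b + S.B a u • u by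
        rw [tau, c2, one_smul, add_right_comm, hsum],
      ← hbu]
    exact S.tau_tau hu1 b
  have key : h' * g * h'⁻¹ * g⁻¹ * (g * h') = h' * g := by group
  have e4 := (S.act_mul (S.D_le_N hD) (mul_mem hgN hhN) (a + v)).1
  rw [key, e3, e2] at e4
  exact e4.symm

/-- Transitivity of the commutator subgroup on the non-zero labels with equal value of the form. -/
theorem transitive (hk : 3 ≤ k) (h2 : (2 : F) ≠ 0) {a b : L k} (ha : a ≠ 0) (hb : b ≠ 0)
    (h : S.q a = S.q b) : ∃ n ∈ S.D, S.sP n a = b := by
  let Q := S.quad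
  rcases eq_or_ne a b with rfl | hne
  · exact ⟨1, one_mem _, S.act_one a⟩
  rcases zmod2_cases (S.B a b) with h0 | h1
  · obtain ⟨d₀, hd₁, hd₂⟩ := Q.exists_dual ha hb hne 1 1
    obtain ⟨w, hw, hq⟩ := Q.exists_coset
      (W := Q.perp (Submodule.span (ZMod 2) ((({a, b} : Finset (L k)) : Set (L k)))))
      (by have := Q.le_finrank_perp_span ({a, b} : Finset (L k))
          have := Finset.card_le_two (a := a) (b := b); omega) d₀ (S.q a)
    have had : S.B a (d₀ + w) = 1 := by
      rw [map_add, show S.B a d₀ = 1 from hd₁, show S.B a w = 0 from hw a (Submodule.subset_span (by simp)),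
        add_zero]
    have hdb : S.B (d₀ + w) b = 1 := by
      rw [S.sk, map_add, show S.B b d₀ = 1 from hd₂,
        show S.B b w = 0 from hw b (Submodule.subset_span (by simp)), add_zero]
    have hd0 : d₀ + w ≠ 0 := fun e => by rw [e, map_zero] at had; exact zero_ne_one had
    have hqd : S.q (d₀ + w) = S.q a := hq
    obtain ⟨n, hn, e⟩ := S.exists_mem_D_step hk h2 ha hd0 hqd.symm had
    obtain ⟨n', hn', e'⟩ := S.exists_mem_D_step hk h2 hd0 hb (hqd.trans h) hdb
    exact ⟨n' * n, mul_mem hn' hn, by rw [(S.act_mul (S.D_le_N hn') (S.D_le_N hn) a).1, e, e']⟩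
  · exact S.exists_mem_D_step hk h2 ha hb h h1

/-- The system lies in the commutator subgroup of the normaliser, also with opposite signs. -/
theorem smul_gl_mem_D (hk : 3 ≤ k) (h2 : (2 : F) ≠ 0) {g : GL ι F} {c : F} (hc : c * c = 1) {v : L k}
    (hg : (g : 𝕄) = c • S.P v) : g ∈ S.D := by
  let Q := S.quad
  obtain ⟨m, hm, hm'⟩ : ∃ m ∈ S.D, (m : 𝕄) = (-1 : F) • 1 := by
    obtain ⟨x, hx⟩ : ∃ x : L k, x ≠ 0 := by
      refine ⟨Pi.single ⟨0, by omega⟩ 1, fun e => ?_⟩
      have := congrFun e ⟨0, by omega⟩
      simp at this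
    obtain ⟨y, hy⟩ : ∃ y, S.B x y = 1 := by
      by_contra hcon
      push Not at hcon
      exact hx (S.nondeg x fun w => (zmod2_cases _).resolve_right (hcon w))
    refine ⟨S.gl x * S.gl y * (S.gl x)⁻¹ * (S.gl y)⁻¹,
      Subgroup.commutator_mem_commutator (S.gl_mem_N x) (S.gl_mem_N y), ?_⟩
    rw [Units.val_mul, Units.val_mul, Units.val_mul, coe_gl, coe_gl, S.comm x y, hy, sgn_one,
      smul_mul_assoc, mul_assoc (S.P y), ← coe_gl S x, Units.mul_inv, mul_one, smul_mul_assoc, ← coe_gl S y,
      Units.mul_inv]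
  suffices hv : ∃ g' ∈ S.D, ∃ c' : F, c' * c' = 1 ∧ (g' : 𝕄) = c' • S.P v by
    obtain ⟨g', hg', c', hc', e⟩ := hv
    rcases mul_self_eq_mul_self_iff.1 (hc.trans hc'.symm) with rfl | rfl
    · rwa [show g = g' from Units.ext (hg.trans e.symm)]
    · rw [show g = m * g' from Units.ext (by
        rw [hg, Units.val_mul, hm', e, smul_mul_assoc, one_mul, smul_smul, neg_one_mul])]
      exact mul_mem hm hg'
  rcases eq_or_ne v 0 with rfl | hv
  · exact ⟨1, one_mem _, 1, one_mul 1, by rw [one_smul, S.zero, Units.val_one]⟩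
  -- a label moved by `v`
  obtain ⟨d, hd⟩ : ∃ d, S.B v d = 1 := by
    by_contra hcon
    push Not at hcon
    exact hv (S.nondeg v fun w => (zmod2_cases _).resolve_right (hcon w))
  obtain ⟨y, hy, hy0, hyv⟩ : ∃ y, S.q (y + v) = S.q y ∧ y ≠ 0 ∧ y + v ≠ 0 := by
    have hq : ∀ y, S.B v y = S.q v → S.q (y + v) = S.q y := fun y hy => by
      rw [S.q_add, S.sk y v, hy, add_assoc, CharTwo.add_self_eq_zero, add_zero]
    rcases zmod2_cases (S.q v) with h0 | h1
    · obtain ⟨z, hz, hzv⟩ := SetLike.exists_of_lt (show Submodule.span (ZMod 2) {v} <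
          Q.perp (Submodule.span (ZMod 2) ((({v} : Finset (L k)) : Set (L k)))) from
        Submodule.lt_of_le_of_finrank_lt_finrank
          ((Submodule.span_singleton_le_iff_mem _ _).2 (by
            intro w hw
            rw [Finset.coe_singleton, Submodule.mem_span_singleton] at hw
            obtain ⟨t, rfl⟩ := hw
            show S.B (t • v) v = 0
            rw [map_smul, LinearMap.smul_apply, S.B_self, smul_zero]))
          (by have := Q.le_finrank_perp_span ({v} : Finset (L k))
              simp only [Finset.card_singleton] at this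
              have h1 : finrank (ZMod 2) (Submodule.span (ZMod 2) {v}) = 1 := finrank_span_singleton hv
              calc _ = 1 := h1
                _ < 2 * k - 1 := by omega
                _ ≤ _ := Nat.sub_le_iff_le_add.2 this))
      exact ⟨z, hq z (by rw [h0]; exact hz v (Submodule.subset_span (by simp))),
        fun e => hzv (e ▸ Submodule.zero_mem _), fun e => hzv (by
          rw [show z = v by rw [← add_zero z, ← two_torsion v, ← add_assoc, e, zero_add]]
          exact Submodule.mem_span_singleton_self v)⟩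
    · exact ⟨d, hq d (by rw [hd, h1]), fun e => by simp [e] at hd, fun e => by
        have hdv : d = v := by rw [← add_zero d, ← two_torsion v, ← add_assoc, e, zero_add]
        rw [hdv, S.B_self] at hd
        exact zero_ne_one hd⟩
  obtain ⟨n, hn, hs⟩ := S.transitive hk h2 hy0 hyv hy.symm
  obtain ⟨e, he0, he⟩ := S.P_add_coeff v y
  have hnN := S.D_le_N hn
  have hval : ((n * S.gl y * n⁻¹ * (S.gl y)⁻¹ : GL ι F) : 𝕄) = (S.cP n y * e) • S.P v := by
    rw [Units.val_mul, Units.val_mul, Units.val_mul, coe_gl, S.act_spec hnN, hs, smul_mul_assoc,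
      mul_assoc (S.P (y + v)), Units.mul_inv, mul_one, smul_mul_assoc, add_comm y v, he, smul_mul_assoc,
      smul_smul, mul_assoc, ← coe_gl S y, Units.mul_inv, mul_one]
  have hmem : n * S.gl y * n⁻¹ * (S.gl y)⁻¹ ∈ S.D :=
    Subgroup.commutator_mem_commutator hnN (S.gl_mem_N y)
  exact ⟨_, hmem, _, S.smul_sq_eq_one (S.N_le (S.D_le_N hmem)) (S.gl_mem_isom v) hval, hval⟩

theorem gl_mem_D (hk : 3 ≤ k) (h2 : (2 : F) ≠ 0) (v : L k) : S.gl v ∈ S.D :=
  S.smul_gl_mem_D hk h2 (one_mul 1) (by rw [one_smul, coe_gl])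

end Sys

end CfsgLib.Geometric.OrthType
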